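import Mathlib
import Cfsg.Agent.Base
import Cfsg.Agent.Lib.ClassMax.C8
import Cfsg.Agent.Lib.OrthLow.C1

/-!
Reducible maximal subgroups of unitary groups in small dimension.
-/

set_option autoImplicit false
set_option linter.unusedSectionVars false

namespace H28.Low

open Module Cfsg H28 H97

section

variable {F V : Type*} [Field F] [AddCommGroup V] [Module F V] {σ : F →+* F} {P : PQ F V σ}
  [FiniteDimensional F V] {M : Subgroup (V ≃ₗ[F] V)}

theorem exists_sing_notMem {k : ℕ} (h : IsoK P k) {Y Z : Submodule F V} (hirr : Irr P Y)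
    (hk : k ≤ finrank F Y) (hZ : ¬ Y ≤ Z) : ∃ a ∈ Y, P.q a ∈ P.Λ ∧ a ∉ Z := by
  by_contra hc
  push Not at hc
  rcases hirr (Submodule.span F {a | a ∈ Y ∧ P.q a ∈ P.Λ}) (Submodule.span_le.2 fun a ha => ha.1)
    (fun g hg hg' y hy => by
      have : (Submodule.span F {a | a ∈ Y ∧ P.q a ∈ P.Λ}).map (g : V →ₗ[F] V) ≤
          Submodule.span F {a | a ∈ Y ∧ P.q a ∈ P.Λ} := by
        rw [Submodule.map_span_le]
        exact fun a ha => Submodule.subset_span ⟨(hg' a).1 ha.1, isom_q hg ha.2⟩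
      exact this ⟨y, hy, rfl⟩) with h1 | h1
  · obtain ⟨x, hx, hx0, hq⟩ := h Y hk
    exact hx0 ((Submodule.eq_bot_iff _).1 h1 x (Submodule.subset_span ⟨hx, hq⟩))
  · exact hZ (h1 ▸ Submodule.span_le.2 fun a ha => hc a ha.1 ha.2)

theorem isMaximalIn_nondeg_of_lambda {k : ℕ} (h : IsoK P k) (hP : P.B.SeparatingLeft)
    (hl : ∃ l ∈ P.Λ, l ≠ 0) {W : Submodule F V} (hW : W ⊓ perp P W = ⊥) (h0 : W ≠ ⊥)
    (hdim : k + 2 ≤ finrank F (perp P W)) (hswap : ∀ g ∈ P.Isom, ¬ ∀ x ∈ perp P W, g x ∈ W) :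
    Geo.IsMaximalIn (EG P) (stab W ⊓ EG P) := by
  have hn : k + 2 ≤ finrank F V := by have := Submodule.finrank_le (perp P W); omega
  refine isMaximalIn_of inf_le_right (fun hle => h.not_EG_le_stab hP hn h0 ?_
    (hle.trans inf_le_left)) fun M hH hM ⟨g, hg, hg'⟩ => ?_
  · rintro rfl
    rw [top_inf_eq] at hW
    rw [hW, finrank_bot] at hdim
    omega
  have hI : ∀ g ∈ M, g ∈ P.Isom := fun g hg => EG_le_isom (hM hg)
  have hY := irr_of_lambda hP (perp_nondeg hP hW) hl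
  obtain ⟨a₀, ha₀, qa₀, ha₀'⟩ := exists_sing_notMem h hY (by omega)
    (Z := (perp P W).comap (g : V →ₗ[F] V)) fun hle =>
      hg' ⟨stab_of_perp hP (hI g hg) (mem_stab_of_maps hle), hM hg⟩
  obtain ⟨b₀, hb₀, qb₀, hb₀'⟩ := exists_sing_notMem h hY (by omega)
    (Z := W.comap (g : V →ₗ[F] V)) (hswap g (hI g hg))
  obtain ⟨x, hx, qx, hx1, hx2⟩ : ∃ x ∈ perp P W, P.q x ∈ P.Λ ∧ g x ∉ perp P W ∧ g x ∉ W := by
    by_cases h1 : g a₀ ∈ W
    swap
    · exact ⟨a₀, ha₀, qa₀, ha₀', h1⟩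
    by_cases h2 : g b₀ ∈ perp P W
    swap
    · exact ⟨b₀, hb₀, qb₀, h2, hb₀'⟩
    refine ⟨a₀ + b₀, Submodule.add_mem _ ha₀ hb₀, sing_add qa₀ qb₀ ?_, fun h3 => ha₀' ?_,
      fun h3 => hb₀' ?_⟩
    · rw [← (hI g hg).1]; exact h2 _ h1
    · exact (Submodule.add_mem_iff_left _ h2).1 (map_add g a₀ b₀ ▸ h3)
    · exact (Submodule.add_mem_iff_right _ h1).1 (map_add g a₀ b₀ ▸ h3)
  obtain ⟨l, hl1, hl0⟩ := hl
  obtain ⟨t, ht, et⟩ := has_eu_conj ((has_eu_stab_of_perp (w := 0) (c := l) qx (by simp)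
    (P.Λ.sub_mem hl1 P.q_zero) hx (Submodule.zero_mem _)).mono hH) hg (hI g hg)
  obtain ⟨y, hy, w, hw, e⟩ := H12G.exists_decomp hW (g x)
  have hy0 : y ≠ 0 := by rintro rfl; exact hx2 (by simpa [e] using hw)
  obtain ⟨z, hz1, hz2⟩ := exists_B_eq' hP (H := W) (u := y)
    (fun h1 => hy0 (H12G.eq_zero_of_nd hW h1 hy)) 1
  obtain ⟨a, ha, ha0, qa⟩ := h (perp P W ⊓ LinearMap.ker (P.B y) ⊓ LinearMap.ker (P.B z)) (by
    have h1 := finrank_inf_ker (perp P W) (P.B y)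
    have h2 := finrank_inf_ker (perp P W ⊓ LinearMap.ker (P.B y)) (P.B z)
    omega)
  have haW : a ∉ W := fun h1 => ha0 (H12G.eq_zero_of_nd hW h1 ha.1.1)
  obtain ⟨b, hb1, hb2⟩ := exists_B_eq' hP (H := W ⊔ F ∙ a) (u := y) (fun h1 => by
    obtain ⟨w', hw', _, ha', rfl⟩ := Submodule.mem_sup.1 h1
    obtain ⟨c, rfl⟩ := Submodule.mem_span_singleton.1 ha'
    rw [map_add, LinearMap.add_apply, hz1 w' hw', B_smul_left, P.eq_zero_symm ha.2] at hz2
    simp at hz2) 1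
  have hbW : b ∈ perp P W := fun u hu => hb1 u (Submodule.mem_sup_left hu)
  have hab : P.B a b = 0 := hb1 a (Submodule.mem_sup_right (Submodule.mem_span_singleton_self a))
  have hta : t a = a := by
    rw [et]
    refine eu_fix _ ?_ (by simp)
    rw [e, map_add, LinearMap.add_apply, ha.1.1 w hw, show P.B y a = 0 from ha.1.2, add_zero]
  have h1 := has_eu_conj ((has_eu_stab_of_perp qa hab (c := P.q b) (by simp) ha.1.1 hbW).mono hH)
    ht (hI t ht)
  obtain ⟨e', f', he', hf', hef, heU, hfU⟩ := h.exists_pair_in hP hW (Y := F ∙ a)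
    ((Submodule.span_singleton_le_iff_mem _ _).2 ha.1.1)
    (by have := finrank_span_singleton_le (F := F) a; omega)
  refine h.EG_le_of_gain hP hn (irr_of_lambda hP hW ⟨l, hl1, hl0⟩) qa ha.1.1 haW he' hf' hef heU hfU
    hH (y := t b) (c := P.q b) (by rw [← hta, (hI t ht).1, hab])
    (isom_valid (hI t ht) (by simp)) (fun h2 => hx1 ?_) (by rwa [hta] at h1)
  rw [et, eu_apply] at h2
  have h3 : P.B (g x) b = 1 := by rw [e, map_add, LinearMap.add_apply, hb2, hbW w hw, add_zero]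
  simp only [map_zero, LinearMap.zero_apply, smul_zero, sub_zero, h3, mul_one, zero_sub] at h2
  exact (Submodule.smul_mem_iff _ (neg_ne_zero.2 (mul_ne_zero P.ε_ne_zero hl0))).1
    ((Submodule.add_mem_iff_right _ hbW).1 h2)

end

variable {F : Type*} [Field F] [Fintype F] {n q : ℕ} [H11.U.IsSq F q]

theorem totSing_SU (hn : 4 ≤ n) (W : Submodule F (Fin n → F)) (hW0 : W ≠ ⊥)
    (hW : Geo.IsTotallySingularFor (hermForm n F q) W) :
    Geo.IsMaximalIn (GU n F q ⊓ Geo.specialLinear (Fin n) F)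
      (Geo.subspaceStabilizer W ⊓ (GU n F q ⊓ Geo.specialLinear (Fin n) F)) := by
  rw [SU_eq (by omega), subspaceStabilizer_eq, ← pull_inf]
  exact isMaximalIn_pull (uP_isoK.isMaximalIn_totSing uP_nd
    (by simp; omega) hW0 (fun w hw => uP_q_mem.2 (hW w hw w hw))
    (fun w hw w' hw' => hW w' hw' w hw) (Or.inl uP_lambda))

theorem nondeg_SU (hn : 6 ≤ n) (W : Submodule F (Fin n → F)) (hW0 : W ≠ ⊥)
    (hW : Geo.IsNondegenerateOn (hermForm n F q) W) (hdim : 2 * finrank F W < n) :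
    Geo.IsMaximalIn (GU n F q ⊓ Geo.specialLinear (Fin n) F)
      (Geo.subspaceStabilizer W ⊓ (GU n F q ⊓ Geo.specialLinear (Fin n) F)) := by
  rw [SU_eq (by omega), subspaceStabilizer_eq, ← pull_inf]
  rw [nondegOn_u] at hW
  have h1 := finrank_perp (uP_nd (F := F) (n := n) (q := q)) W
  simp only [Module.finrank_fintype_fun_eq_card, Fintype.card_fin] at h1
  exact isMaximalIn_pull (isMaximalIn_nondeg_of_lambda uP_isoK uP_nd uP_lambda hW hW0 (by omega)
    fun g _ => not_swap_of_lt (by omega) g)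

end H28.Low
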