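import Mathlib
import Cfsg.Agent.Base
import Cfsg.Agent.Lib.ClassMax.Basic

/-!
An averaging argument: a trilinear map fixed by a subgroup `H` of `X` is fixed by `X` as soon as
suitable groups of square-zero elements of `H` act semiregularly on the other conjugates.
-/

set_option autoImplicit false
set_option linter.unusedSectionVars false

namespace H28.Low

open Module Cfsg H97

theorem sum_mem_of_free {A S N : Type*} [AddGroup A] [Fintype A] [AddCommGroup N]
    (ρ : A → S → S) (h0 : ∀ f, ρ 0 f = f) (hadd : ∀ a b f, ρ (a + b) f = ρ a (ρ b f))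
    (φ : S → N) (K : AddSubgroup N) (s : Finset S) (hcl : ∀ f ∈ s, ∀ a, ρ a f ∈ s)
    (hfree : ∀ f ∈ s, ∀ a, ρ a f = f → a = 0) (h : ∀ f ∈ s, ∑ a, φ (ρ a f) ∈ K) :
    ∑ f ∈ s, φ f ∈ K := by
  classical
  induction s using Finset.strongInduction with
  | H s ih =>
    rcases s.eq_empty_or_nonempty with rfl | ⟨f, hf⟩
    · simp
    have hinj : Function.Injective fun a => ρ a f := fun a b hab => by
      have h1 : ρ (-b + a) f = f := by
        rw [hadd]
        change ρ (-b) ((fun a => ρ a f) a) = f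
        rw [hab, ← hadd, neg_add_cancel, h0]
      exact (neg_add_eq_zero.1 (hfree f hf _ h1)).symm
    set o : Finset S := Finset.univ.image fun a => ρ a f with ho
    have hos : o ⊆ s := fun x hx => by
      obtain ⟨a, -, rfl⟩ := Finset.mem_image.1 hx
      exact hcl f hf a
    have hfo : f ∈ o := Finset.mem_image.2 ⟨0, Finset.mem_univ _, h0 f⟩
    rw [← Finset.sum_sdiff hos]
    refine K.add_mem (ih _ (Finset.sdiff_ssubset hos ⟨f, hfo⟩) (fun x hx a => ?_)
      (fun x hx => hfree x (Finset.mem_sdiff.1 hx).1) fun x hx => h x (Finset.mem_sdiff.1 hx).1) ?_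
    · obtain ⟨h1, h2⟩ := Finset.mem_sdiff.1 hx
      refine Finset.mem_sdiff.2 ⟨hcl x h1 a, fun h3 => h2 ?_⟩
      obtain ⟨b, -, hb⟩ := Finset.mem_image.1 h3
      refine Finset.mem_image.2 ⟨-a + b, Finset.mem_univ _, ?_⟩
      rw [hadd, hb, ← hadd, neg_add_cancel, h0]
    · rw [ho, Finset.sum_image fun a _ b _ hab => hinj hab]
      exact h f hf

variable {F V : Type*} [Field F] [AddCommGroup V] [Module F V]

theorem sum_tri_eq_zero [Fintype F] {r : ℕ} (hr : 3 < (Fintype.card F - 1) * r)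
    (f : V →ₗ[F] V →ₗ[F] V →ₗ[F] V) (x y w : V) (x' y' w' : Fin r → V) :
    ∑ c : Fin r → F, f (x + ∑ i, c i • x' i) (y + ∑ i, c i • y' i) (w + ∑ i, c i • w' i) = 0 := by
  classical
  let p : Option (Fin r) → MvPolynomial (Fin r) F := fun o => o.elim 1 MvPolynomial.X
  have hp : ∀ o, (p o).totalDegree ≤ 1 := by
    rintro (_ | i) <;> simp [p]
  have e : ∀ (c : Fin r → F) (v : V) (v' : Fin r → V), v + ∑ i, c i • v' i =
      ∑ o : Option (Fin r), MvPolynomial.eval c (p o) • o.elim v v' := fun c v v' => by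
    simp [p, Fintype.sum_option]
  have e2 : ∀ c : Fin r → F,
      f (x + ∑ i, c i • x' i) (y + ∑ i, c i • y' i) (w + ∑ i, c i • w' i) =
      ∑ o : Option (Fin r) × Option (Fin r) × Option (Fin r),
        MvPolynomial.eval c (p o.1 * p o.2.1 * p o.2.2) •
          f (o.1.elim x x') (o.2.1.elim y y') (o.2.2.elim w w') := fun c => by
    rw [e, e, e]
    simp only [map_sum, map_smul, LinearMap.sum_apply, LinearMap.smul_apply, Fintype.sum_prod_type,
      Finset.smul_sum, smul_smul, map_mul]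
    rw [Finset.sum_comm]
    conv_lhs => enter [2, a]; rw [Finset.sum_comm]
    rw [Finset.sum_comm]
    refine Finset.sum_congr rfl fun a _ => Finset.sum_congr rfl fun b _ =>
      Finset.sum_congr rfl fun d _ => ?_
    congr 1
    ring
  simp only [e2]
  rw [Finset.sum_comm]
  refine Finset.sum_eq_zero fun o _ => ?_
  rw [← Finset.sum_smul, MvPolynomial.sum_eval_eq_zero, zero_smul]
  refine lt_of_le_of_lt ?_ (by simpa using hr)
  have h1 := MvPolynomial.totalDegree_mul (p o.1 * p o.2.1) (p o.2.2)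
  have h2 := MvPolynomial.totalDegree_mul (p o.1) (p o.2.1)
  have := hp o.1
  have := hp o.2.1
  have := hp o.2.2
  omega

/-- Transport of a trilinear map. -/
noncomputable def act (g : V ≃ₗ[F] V) (f : V →ₗ[F] V →ₗ[F] V →ₗ[F] V) : V →ₗ[F] V →ₗ[F] V →ₗ[F] V :=
  ((f ∘ₗ (g⁻¹ : V ≃ₗ[F] V).toLinearMap).compl₂ (g⁻¹ : V ≃ₗ[F] V).toLinearMap).compr₂
    (LinearEquiv.conj g).toLinearMap

theorem act_apply (g : V ≃ₗ[F] V) (f : V →ₗ[F] V →ₗ[F] V →ₗ[F] V) (x y w : V) :
    act g f x y w = g (f (g⁻¹ x) (g⁻¹ y) (g⁻¹ w)) := rfl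

theorem act_one (f : V →ₗ[F] V →ₗ[F] V →ₗ[F] V) : act 1 f = f := by
  ext x y w; rfl

theorem act_mul (g h : V ≃ₗ[F] V) (f : V →ₗ[F] V →ₗ[F] V →ₗ[F] V) :
    act (g * h) f = act g (act h f) := by
  ext x y w; rfl

/-- The stabiliser of a trilinear map. -/
def Fix (θ : V →ₗ[F] V →ₗ[F] V →ₗ[F] V) : Subgroup (V ≃ₗ[F] V) where
  carrier := {g | act g θ = θ}
  one_mem' := act_one θ
  mul_mem' {a b} ha hb := by
    change act (a * b) θ = θ
    rw [act_mul, show act b θ = θ from hb]; exact ha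
  inv_mem' {a} ha := by
    change act a⁻¹ θ = θ
    conv_lhs => rw [← show act a θ = θ from ha]
    rw [← act_mul, inv_mul_cancel, act_one]

theorem mem_Fix {θ : V →ₗ[F] V →ₗ[F] V →ₗ[F] V} {g : V ≃ₗ[F] V} :
    g ∈ Fix θ ↔ ∀ x y w, θ (g x) (g y) (g w) = g (θ x y w) := by
  constructor
  · intro h x y w
    conv_lhs => rw [← show act g θ = θ from h]
    simp only [act_apply, le_inv_apply_apply]
  · intro h
    ext x y w
    rw [act_apply, ← h]
    simp only [le_apply_inv]

/-- An elementary abelian group of square-zero elements with image in `N`, fixing `θ` and no other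
conjugate of `θ`. -/
def TIData (X : Subgroup (V ≃ₗ[F] V)) (θ : V →ₗ[F] V →ₗ[F] V →ₗ[F] V) (N : Submodule F V) : Prop :=
  ∃ (r : ℕ) (ν : Fin r → V →ₗ[F] V), 3 < (Nat.card F - 1) * r ∧ (∀ i j x, ν i (ν j x) = 0) ∧
    (∀ i x, ν i x ∈ N) ∧ ∀ c : Fin r → F, ∃ z ∈ X, (∀ x, z x = x + ∑ i, c i • ν i x) ∧ z ∈ Fix θ ∧
      (c ≠ 0 → ∀ g ∈ X, g⁻¹ * z * g ∈ Fix θ → g ∈ Fix θ)

theorem le_Fix [Finite F] [FiniteDimensional F V] {X : Subgroup (V ≃ₗ[F] V)}
    {θ : V →ₗ[F] V →ₗ[F] V →ₗ[F] V} {N N' : Submodule F V} (hN : TIData X θ N)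
    (hN' : TIData X θ N') (hd : N ⊓ N' = ⊥) : X ≤ Fix θ := by
  classical
  have := Fintype.ofFinite F
  have : Finite V := Module.finite_of_finite F
  have : Finite (V ≃ₗ[F] V) := Finite.of_injective _ DFunLike.coe_injective
  have := Fintype.ofFinite X
  set O : Finset (V →ₗ[F] V →ₗ[F] V →ₗ[F] V) := Finset.univ.image fun g : X => act g.1 θ with hO
  have hO1 : ∀ f, f ∈ O ↔ ∃ g ∈ X, act g θ = f := fun f => by simp [hO]
  have hθ : θ ∈ O := (hO1 _).2 ⟨1, X.one_mem, act_one θ⟩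
  have hO2 : ∀ g ∈ X, ∀ f ∈ O, act g f ∈ O := fun g hg f hf => by
    obtain ⟨k, hk, rfl⟩ := (hO1 f).1 hf
    exact (hO1 _).2 ⟨g * k, X.mul_mem hg hk, act_mul _ _ _⟩
  have key : ∀ N : Submodule F V, TIData X θ N → ∀ x y w, ∑ f ∈ O.erase θ, f x y w ∈ N := by
    rintro N ⟨r, ν, hr, hν, hνN, hz⟩ x y w
    choose z hzX ez hzF hzs using hz
    have hνν : ∀ (c c' : Fin r → F) x, ∑ i, c i • ν i (∑ j, c' j • ν j x) = 0 := fun c c' x =>
      Finset.sum_eq_zero fun i _ => by simp [hν]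
    have hz0 : z 0 = 1 := LinearEquiv.ext fun x => by simp [ez]
    have hzadd : ∀ a b, z (a + b) = z a * z b := fun a b => LinearEquiv.ext fun x => by
      rw [le_mul_apply, ez, ez, ez]
      simp only [map_add, smul_add, Finset.sum_add_distrib, hνν, Pi.add_apply, add_smul]
      abel
    have hzinv : ∀ a x, (z a)⁻¹ x = x + ∑ i, a i • (-ν i x) := fun a x => by
      rw [show (z a)⁻¹ = z (-a) from inv_eq_of_mul_eq_one_right (by
        rw [← hzadd, add_neg_cancel, hz0]), ez]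
      simp
    refine sum_mem_of_free (fun a f => act (z a) f) (fun f => by rw [hz0, act_one])
      (fun a b f => by rw [hzadd, act_mul]) (fun f => f x y w) N.toAddSubgroup _
      (fun f hf a => ?_) (fun f hf a ha => ?_) fun f _ => ?_
    · obtain ⟨h1, h2⟩ := Finset.mem_erase.1 hf
      refine Finset.mem_erase.2 ⟨fun h3 => h1 ?_, hO2 _ (hzX a) f h2⟩
      have h4 : act (z a)⁻¹ θ = θ := (Fix θ).inv_mem (hzF a)
      rw [← h4, ← h3, ← act_mul, inv_mul_cancel, act_one]
    · obtain ⟨h1, h2⟩ := Finset.mem_erase.1 hf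
      obtain ⟨g, hg, rfl⟩ := (hO1 f).1 h2
      by_contra h0
      refine h1 (hzs a h0 g hg ?_)
      change act _ θ = θ
      rw [act_mul, act_mul, ha, ← act_mul, inv_mul_cancel, act_one]
    · simp only [act_apply]
      simp only [ez, Finset.sum_add_distrib]
      refine N.add_mem ?_ (N.sum_mem fun a _ => N.sum_mem fun i _ => N.smul_mem _ (hνN i _))
      simp only [hzinv]
      rw [sum_tri_eq_zero (by simpa using hr)]
      exact N.zero_mem
  have h1 : ∑ f ∈ O, f = θ := by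
    rw [← Finset.add_sum_erase O _ hθ]
    ext x y w
    have : ∑ f ∈ O.erase θ, f x y w ∈ N ⊓ N' := ⟨key N hN x y w, key N' hN' x y w⟩
    rw [hd, Submodule.mem_bot] at this
    simp only [LinearMap.add_apply, LinearMap.sum_apply, this, add_zero]
  intro g hg
  change act g θ = θ
  have h2 : act g (∑ f ∈ O, f) = ∑ f ∈ O, act g f := by
    ext x y w
    simp [act_apply, LinearMap.sum_apply]
  conv_lhs => rw [← h1, h2]
  conv_rhs => rw [← h1]
  refine Finset.sum_bij (fun f _ => act g f) (fun f hf => hO2 g hg f hf) (fun f _ f' _ h => ?_)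
    (fun f hf => ⟨act g⁻¹ f, hO2 _ (X.inv_mem hg) f hf, by
      rw [← act_mul, mul_inv_cancel, act_one]⟩) fun _ _ => rfl
  have := congrArg (act g⁻¹) h
  rwa [← act_mul, ← act_mul, inv_mul_cancel, act_one, act_one] at this

end H28.Low
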