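import Mathlib
import Cfsg.Agent.Base
import Cfsg.Agent.Lib.ClassMax.C8

/-!
Orthogonal groups are maximal in symplectic groups in characteristic two, dimension at least four.
-/

set_option autoImplicit false
set_option linter.unusedSectionVars false

namespace H28.Low

open Module Cfsg H28 H97

variable {F V : Type*} [Field F] [AddCommGroup V] [Module F V] [FiniteDimensional F V]
  {Q : QuadraticForm F V}

theorem exists_nonsing_perp_pair (h2 : (2 : F) = 0) (hQ : (PQ.ofQuad Q).B.SeparatingLeft)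
    (hn : 3 ≤ finrank F V) {u y : V} (huy : (PQ.ofQuad Q).B u y ≠ 0) :
    ∃ z, (PQ.ofQuad Q).B u z = 0 ∧ (PQ.ofQuad Q).B y z = 0 ∧ Q z ≠ 0 := by
  set P := PQ.ofQuad Q with hPd
  have hBB : ∀ x, P.B x x = 0 := polar_alt h2
  have hQa : ∀ x y, Q (x + y) = Q x + Q y + P.B x y := H12.Q_add Q
  have h1 := finrank_le_perp (P := P) (Submodule.span F {u, y})
  have h3 := finrank_span_pair_le (F := F) u y
  obtain ⟨z, hz, hz0⟩ := exists_ne_zero_mem (X := perp P (Submodule.span F {u, y})) (by omega)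
  rw [mem_perp_span] at hz
  have hzu := hz u (by simp)
  have hzy := hz y (by simp)
  by_cases hq : Q z = 0
  swap
  · exact ⟨z, hzu, hzy, hq⟩
  have hzH : z ∉ Submodule.span F {u, y} := fun hh => by
    obtain ⟨a, c, rfl⟩ := Submodule.mem_span_pair.1 hh
    simp only [map_add, map_smul, hBB, smul_eq_mul, mul_zero, zero_add, add_zero,
      mul_eq_zero] at hzu hzy
    rw [hzu.resolve_right huy, hzy.resolve_right (B_ne_zero_symm huy)] at hz0
    simp at hz0
  obtain ⟨z', hz', hzz⟩ := exists_B_eq' hQ hzH 1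
  refine ⟨(1 - Q z') • z + z', by simp [hzu, hz' u (Submodule.subset_span (by simp))],
    by simp [hzy, hz' y (Submodule.subset_span (by simp))], ?_⟩
  rw [hQa, H12.Q_smul, hq, B_smul_left, hzz]
  simp

/-- Orthogonal groups are maximal in symplectic groups in characteristic two. -/
theorem isMaximalIn_O_Sp [Finite F] (h2 : (2 : F) = 0) (hQ : (PQ.ofQuad Q).B.SeparatingLeft)
    (hn : 3 ≤ finrank F V) :
    Geo.IsMaximalIn (PQ.ofAlt (QuadraticMap.polarBilin Q) (polar_alt h2)).Isom
      (PQ.ofQuad Q).Isom := by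
  set P := PQ.ofQuad Q with hPd
  have hQa : ∀ x y, Q (x + y) = Q x + Q y + P.B x y := H12.Q_add Q
  have hBB : ∀ x, P.B x x = 0 := polar_alt h2
  have hcomm : ∀ x y, P.B x y = P.B y x := QuadraticMap.polar_comm Q
  refine isMaximalIn_of (fun g hg => PQ.mem_isom_ofAlt.2 hg.1) (fun hle => ?_)
    fun M h1 hM ⟨g, hg, hg'⟩ => ?_
  · obtain ⟨e, -, he0, he⟩ := isoK_quad Q ⊤ (by simpa using hn)
    obtain ⟨f, -, hef⟩ := exists_B_eq' hQ (H := ⊥) (u := e) (by simpa using he0) 1
    obtain ⟨s, hs, es⟩ := has_qrefl_isom (P := PQ.ofAlt (QuadraticMap.polarBilin Q) (polar_alt h2))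
      hQ (c := 1) (d := e) trivial
    have h3 := PQ.mem_isom_ofQuad.1 (hle hs) f
    have h4 : s f = f + e := by
      rw [es, PQ.qrefl_apply]
      change f + (1 * P.B e f) • e = _
      rw [hef]; simp
    rw [h4, hQa, hcomm, hef, show Q e = 0 from he] at h3
    simp at h3
  have hMB : ∀ g ∈ M, ∀ x y, P.B (g x) (g y) = P.B x y := fun g hg => PQ.mem_isom_ofAlt.1 (hM hg)
  have hS1 : ∀ w, Q w = 1 → HasT M w (P.B w) := fun w hw =>
    ((has_refl_isom hQ (y := w) (by simp [hw])).mono h1).congr fun x => by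
      rw [PQ.qrefl_apply, hw]
      match_scalars
      · rfl
      · linear_combination (-P.B w x) * h2
  have hSg : ∀ g ∈ M, ∀ w, HasT M w (P.B w) → HasT M (g w) (P.B (g w)) := fun g hg w hw =>
    hw.conj' hg fun x => hMB g hg w x
  obtain ⟨w, hw, hgw⟩ : ∃ w, Q w = 1 ∧ Q (g w) ≠ 1 := by
    by_contra hc
    push Not at hc
    have hs : ∀ x, Q x ≠ 0 → Q (g x) = Q x := fun x hx => by
      obtain ⟨t, ht⟩ := exists_sq_eq_of_two_eq_zero h2 (Q x)⁻¹
      have h3 : Q (t • x) = 1 := by rw [H12.Q_smul, ht, inv_mul_cancel₀ hx]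
      have h4 := hc _ h3
      rw [map_smul, H12.Q_smul, ht] at h4
      field_simp at h4
      exact h4
    refine hg' (PQ.mem_isom_ofQuad.2 fun x => ?_)
    by_cases hx : Q x = 0
    swap
    · exact hs x hx
    obtain ⟨y, hy, hy'⟩ := exists_nonsing_of_large hQ (X := perp P (F ∙ x)) (by
      have h3 := finrank_le_perp (P := P) (F ∙ x)
      have h4 := finrank_span_singleton_le (F := F) x
      omega)
    have hxy := mem_perp_singleton.1 hy
    have h5 := hs (x + y) (by rw [hQa, hx, hxy]; simpa using hy')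
    rw [map_add, hQa, hQa, hMB g hg, hs y hy'] at h5
    linear_combination h5
  have hu := hSg g hg w (hS1 w hw)
  have hu0 : g w ≠ 0 := by
    rintro h0
    rw [map_eq_zero_iff _ g.injective] at h0
    simp [h0] at hw
  set u := g w
  have hall : ∀ x, HasT M x (P.B x) := by
    intro x
    by_cases hx : x = 0
    · rw [hx]; exact hasT_zero_left _
    by_cases hx1 : Q x = 1
    · exact hS1 x hx1
    obtain ⟨c, hc⟩ := exists_sq_eq_of_two_eq_zero h2 ((Q x + 1) / (Q u + 1))
    have h3 : Q u + 1 ≠ 0 := fun h0 => hgw (by linear_combination h0 - h2)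
    have h3' : Q x + 1 ≠ 0 := fun h0 => hx1 (by linear_combination h0 - h2)
    have hc0 : c ≠ 0 := by
      rintro rfl
      exact div_ne_zero h3' h3 (by rw [← hc]; ring)
    obtain ⟨y, -, hy⟩ := exists_B_eq' hQ (H := ⊥) (u := u) (by simpa using hu0) c
    obtain ⟨z, huz, hyz, hz⟩ := exists_nonsing_perp_pair h2 hQ hn (u := u) (y := y) (by rwa [hy])
    replace huz : P.B u z = 0 := huz
    replace hyz : P.B y z = 0 := hyz
    obtain ⟨t, ht⟩ := exists_sq_eq_of_two_eq_zero h2 ((1 - Q y) / Q z)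
    have h4 : Q (y + t • z) = 1 := by
      rw [hQa, H12.Q_smul, ht, map_smul, hyz]
      field_simp
      simp
    obtain ⟨s, hs, es⟩ := hu.elim
    have h5 := hSg s hs _ (hS1 _ h4)
    have h6 : P.B u (y + t • z) = c := by simp [hy, huz]
    have h7 : Q (s (y + t • z)) = Q x := by
      rw [es, hQa, h4, H12.Q_smul, map_smul, hcomm _ u, h6, smul_eq_mul]
      field_simp at hc
      linear_combination hc + h2
    obtain ⟨t', ht', et, -⟩ := P.witt_step hQ ⊥ (u := s (y + t • z)) (v := x) (by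
        rw [Submodule.mem_bot, map_eq_zero_iff _ s.injective]
        intro h0
        simp [h0] at h4) (by simpa using hx) (sub_eq_zero.2 h7.symm) (by simp)
    rw [← et]
    exact hSg t' (h1 ht') _ h5
  refine isom_le_of_transv hQ fun c d => ?_
  obtain ⟨a, rfl⟩ := exists_sq_eq_of_two_eq_zero h2 c
  refine (hall (a • d)).congr fun x => ?_
  change x + P.B (a • d) x • a • d = x + (a ^ 2 * P.B d x) • d
  rw [B_smul_left, RingHom.id_apply]
  module

open scoped Matrix MatrixGroups in
theorem quad_Sp {F : Type*} [Field F] [Fintype F] {m : ℕ} (hm : 2 ≤ m)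
    (heven : ¬ Odd (Fintype.card F)) {Q : (Fin m ⊕ Fin m → F) → F}
    (hQ : Geo.IsNondegenerateQuadraticForm Q)
    (hpol : ∀ u v : (Fin m ⊕ Fin m → F), QuadraticMap.polar Q u v = sympForm m F u v) :
    Geo.IsMaximalIn (spGL m F) (Geo.quadSimilarityGroup Q ⊓ spGL m F) := by
  obtain ⟨Q, rfl, hnd⟩ := exists_quadForm hQ
  have h2 := two_eq_zero_of_not_odd heven
  have h1 : (spP m F).Isom = (PQ.ofAlt (QuadraticMap.polarBilin Q) (polar_alt h2)).Isom := by
    ext g
    refine PQ.mem_isom_ofAlt.trans (Iff.trans ?_ PQ.mem_isom_ofAlt.symm)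
    simp only [QuadraticMap.polarBilin_apply_apply, hpol, H11.Sp.bilin_apply]
  have hn := finrank_sp (F := F) m
  have h3 : qsimG Q ⊓ (PQ.ofAlt (QuadraticMap.polarBilin Q) (polar_alt h2)).Isom =
      (PQ.ofQuad Q).Isom := by
    ext g
    constructor
    · rintro ⟨hg, hg'⟩
      obtain ⟨c, -, hc⟩ := mem_qsimG.1 hg
      obtain ⟨e, -, he0⟩ := exists_ne_zero_mem (X := (⊤ : Submodule F (Fin m ⊕ Fin m → F)))
        (by rw [finrank_top]; omega)
      obtain ⟨f, -, hef⟩ := exists_B_eq' (P := PQ.ofQuad Q) hnd (H := ⊥) (u := e)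
        (by simpa using he0) 1
      have h4 : QuadraticMap.polar Q (g e) (g f) = QuadraticMap.polar Q e f := hg'.1 e f
      have h5 : QuadraticMap.polar Q (g e) (g f) = c * QuadraticMap.polar Q e f := by
        simp only [QuadraticMap.polar, ← map_add, hc]; ring
      rw [h4, show QuadraticMap.polar Q e f = 1 from hef, mul_one] at h5
      exact PQ.mem_isom_ofQuad.2 fun x => by rw [hc, ← h5, one_mul]
    · exact fun hg => ⟨mem_qsimG.2 ⟨1, one_ne_zero, fun x => by
        rw [PQ.mem_isom_ofQuad.1 hg, one_mul]⟩, PQ.mem_isom_ofAlt.2 hg.1⟩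
  rw [quadSimilarityGroup_eq, spGL_eq', ← pull_inf, h1, h3]
  exact isMaximalIn_pull (isMaximalIn_O_Sp h2 hnd (by omega))

end H28.Low
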