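import Mathlib
import Cfsg.Agent.Base
import Cfsg.Agent.Lib.ClassMax.C8
import Cfsg.Agent.Lib.Tensor.SL

/-!
Symplectic tensor orthogonal: basic facts.
-/

set_option autoImplicit false
set_option linter.unusedSectionVars false

namespace H28.Low

open Module Cfsg H28 H97 H11.Ten

section Conn

variable {F V : Type*} [Field F] [AddCommGroup V] [Module F V] [FiniteDimensional F V]
  {B : LinearMap.BilinForm F V} {M : Subgroup (V ≃ₗ[F] V)}

/-- `M` contains all transvections with centre `v`. -/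
def Full (B : LinearMap.BilinForm F V) (M : Subgroup (V ≃ₗ[F] V)) (v : V) : Prop :=
  ∀ c : F, HasT M v (c • B v)

theorem alt_comm (hA : ∀ x, B x x = 0) (x y : V) : B x y = -B y x := by
  have := hA (x + y)
  simp only [map_add, LinearMap.add_apply, hA] at this
  linear_combination this

theorem Full.conj (hM : ∀ g ∈ M, ∀ x y, B (g x) (g y) = B x y) {v : V} (h : Full B M v)
    {g : V ≃ₗ[F] V} (hg : g ∈ M) : Full B M (g v) :=
  fun c => (h c).conj' hg fun x => by simp [hM g hg]

theorem Full.smul {v : V} (h : Full B M v) (a : F) : Full B M (a • v) := fun c => by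
  rw [hasT_smul_iff]
  convert h (a * c * a) using 1
  rw [map_smul, smul_smul, smul_smul]

theorem Full.adj (hM : ∀ g ∈ M, ∀ x y, B (g x) (g y) = B x y) {d e : V} (hd : Full B M d)
    (he : Full B M e) (h : B e d ≠ 0) (s : F) : Full B M (d + s • e) := by
  obtain ⟨g, hg, eg⟩ := (he (s / B e d)).elim
  have := hd.conj hM hg
  rwa [eg, LinearMap.smul_apply, smul_eq_mul, div_mul_cancel₀ _ h] at this

theorem Full.add_of_common (hA : ∀ x, B x x = 0) (h2 : (2 : F) ≠ 0)
    (hM : ∀ g ∈ M, ∀ x y, B (g x) (g y) = B x y) {d z e : V} (hd : Full B M d)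
    (hz : Full B M z) (he : Full B M e) (h1 : B e d ≠ 0) (h3 : B e z ≠ 0) : Full B M (d + z) := by
  by_cases h0 : B z d = 0
  swap
  · simpa using hd.adj hM hz h0 1
  have h0' : B d z = 0 := by rw [alt_comm hA, h0, neg_zero]
  obtain ⟨t, ht0, ht⟩ : ∃ t : F, t ≠ 0 ∧ B e d + t * B e z ≠ 0 := by
    by_cases h : B e d + 1 * B e z = 0
    · refine ⟨-1, by simp, fun h' => h1 ?_⟩
      apply mul_left_cancel₀ h2
      linear_combination h + h'
    · exact ⟨1, one_ne_zero, h⟩
  have h4 := ((hd.adj hM he h1 1).adj hM hz (by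
    simpa [h0, alt_comm hA z e] using h3) t).adj hM he (by simpa [hA] using ht) (-1)
  have h5 : d + (1 : F) • e + t • z + (-1 : F) • e = d + t • z := by module
  rw [h5] at h4
  have h6 : ∀ s : F, Has M fun x => x + (s * B z x) • d + (s * B d x) • z := fun s =>
    (Has.comp (h4 (s / t)) (Has.comp (hd (-(s / t))) (hz (-(s * t))))).congr fun x => by
      simp only [map_add, map_smul, LinearMap.add_apply, LinearMap.smul_apply, smul_eq_mul, hA, h0,
        h0']
      match_scalars
      · ring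
      · field_simp; ring
      · field_simp; ring
  intro c
  refine (Has.comp (h6 c) (Has.comp (hd c) (hz c))).congr fun x => ?_
  simp only [map_add, map_smul, LinearMap.add_apply, LinearMap.smul_apply, smul_eq_mul, hA, h0,
    h0']
  module

/-- A connected spanning family of full transvection groups generates the symplectic group. -/
theorem isom_le_of_conn {hA : ∀ x, B x x = 0} (hB : B.SeparatingLeft) (h2 : (2 : F) ≠ 0)
    (hM : ∀ g ∈ M, ∀ x y, B (g x) (g y) = B x y) {d : V} (X : Set V)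
    (hX : Submodule.span F X = ⊤)
    (h : ∀ x ∈ X, Full B M x ∧ ∃ e, Full B M e ∧ B e d ≠ 0 ∧ B e x ≠ 0) (hd : Full B M d) :
    (PQ.ofAlt B hA).Isom ≤ M := by
  have h1 : ∀ v, Full B M v → v ≠ 0 → ∃ e, Full B M e ∧ B e d ≠ 0 ∧ B e v ≠ 0 := fun v hv hv0 => by
    obtain ⟨x, hx, hxv⟩ : ∃ x ∈ X, B v x ≠ 0 := by
      by_contra hc
      push Not at hc
      have : Submodule.span F X ≤ LinearMap.ker (B v) := Submodule.span_le.2 hc
      exact hv0 (hB v fun y => this (hX ▸ Submodule.mem_top))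
    have hxv' : B x v ≠ 0 := by rwa [alt_comm hA, neg_ne_zero]
    obtain ⟨hx1, e, he, hed, hex⟩ := h x hx
    by_cases h3 : B e v = 0
    swap
    · exact ⟨e, he, hed, h3⟩
    by_cases h4 : B x d = 0
    swap
    · exact ⟨x, hx1, h4, hxv'⟩
    exact ⟨x + (1 : F) • e, hx1.adj hM he hex 1, by simpa [h4] using hed, by simpa [h3] using hxv'⟩
  let S : Submodule F V :=
    { carrier := {v | Full B M v}
      zero_mem' := fun c => hasT_zero_left _
      smul_mem' := fun a v hv => hv.smul a
      add_mem' := fun {v v'} hv hv' => by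
        by_cases h0 : v = 0
        · simpa [h0] using hv'
        by_cases h0' : v' = 0
        · simpa [h0'] using hv
        obtain ⟨e, he, hed, hev⟩ := h1 v hv h0
        obtain ⟨e', he', hed', hev'⟩ := h1 v' hv' h0'
        by_cases h3 : B e v' = 0
        swap
        · exact hv.add_of_common hA h2 hM hv' he hev h3
        by_cases h4 : B e' v = 0
        swap
        · exact hv.add_of_common hA h2 hM hv' he' h4 hev'
        exact hv.add_of_common hA h2 hM hv' (he.add_of_common hA h2 hM he' hd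
          (by rwa [alt_comm hA, neg_ne_zero]) (by rwa [alt_comm hA, neg_ne_zero]))
          (by simpa [h4] using hev) (by simpa [h3] using hev') }
  have hS : Submodule.span F X ≤ S := Submodule.span_le.2 fun x hx => (h x hx).1
  exact isom_le_of_transv hB fun c v => hS (hX ▸ Submodule.mem_top : v ∈ _) c

theorem of_squares (h2 : (2 : F) ≠ 0) {p : F → Prop} (hsub : ∀ a b, p a → p b → p (a - b))
    (h : ∀ t, p (t * t)) (a : F) : p a := by
  convert hsub _ _ (h ((a + 1) / 2)) (h ((a - 1) / 2)) using 1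
  field_simp
  ring

end Conn

section Quad

variable {F W : Type*} [Field F] [AddCommGroup W] [Module F W] [FiniteDimensional F W]
  {Q : QuadraticForm F W}

/-- The reflection in a non-singular vector. -/
def rW {w : W} (hw : Q w ≠ 0) : W ≃ₗ[F] W :=
  Module.reflection (f := (Q w)⁻¹ • QuadraticMap.polarBilin Q w) (x := w) (by
    simp only [LinearMap.smul_apply, QuadraticMap.polarBilin_apply_apply, QuadraticMap.polar_self,
      smul_eq_mul, nsmul_eq_mul]
    field_simp
    rfl)

theorem rW_apply {w : W} (hw : Q w ≠ 0) (x : W) :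
    rW hw x = x - ((Q w)⁻¹ * QuadraticMap.polarBilin Q w x) • w := rfl

theorem pb_comm (x y : W) : QuadraticMap.polarBilin Q x y = QuadraticMap.polarBilin Q y x :=
  QuadraticMap.polar_comm Q x y

theorem pb_self (x : W) : QuadraticMap.polarBilin Q x x = 2 * Q x := H12.B_self Q x

theorem Q_add' (x y : W) : Q (x + y) = Q x + Q y + QuadraticMap.polarBilin Q x y := H12.Q_add Q x y

theorem rW_mem {w : W} (hw : Q w ≠ 0) : rW hw ∈ (PQ.ofQuad Q).Isom :=
  PQ.mem_isom_ofQuad.2 fun x => by
    rw [rW_apply, sub_eq_add_neg, ← neg_smul, Q_add', H12.Q_smul, map_smul, pb_comm x w]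
    simp only [smul_eq_mul]
    field_simp
    ring

theorem rW_mul_self {w : W} (hw : Q w ≠ 0) : rW hw * rW hw = 1 :=
  LinearEquiv.ext fun x => Module.involutive_reflection _ x

theorem isom_pb {g : W ≃ₗ[F] W} (hg : g ∈ (PQ.ofQuad Q).Isom) (x y : W) :
    QuadraticMap.polarBilin Q (g x) (g y) = QuadraticMap.polarBilin Q x y := hg.1 x y

theorem exists_nonsing_perp (hQ : (QuadraticMap.polarBilin Q).SeparatingLeft)
    (hk : 3 ≤ finrank F W) (d : W) : ∃ x, Q x ≠ 0 ∧ QuadraticMap.polarBilin Q d x = 0 := by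
  obtain ⟨y, hy, hy'⟩ := exists_nonsing_of_large hQ (X := perp (PQ.ofQuad Q) (F ∙ d)) (by
    have h3 := finrank_le_perp (P := PQ.ofQuad Q) (F ∙ d)
    have h4 := finrank_span_singleton_le (F := F) d
    omega)
  exact ⟨y, hy', mem_perp_singleton.1 hy⟩

theorem scalar_of_nonsing (h2 : (2 : F) ≠ 0) (hQ : (QuadraticMap.polarBilin Q).SeparatingLeft)
    (hk : 3 ≤ finrank F W) {a : W →ₗ[F] W} (h : ∀ w, Q w ≠ 0 → a w ∈ F ∙ w) :
    ∃ c : F, ∀ x, a x = c • x := by
  by_contra hc
  obtain ⟨d, hd⟩ := exists_notMem_of_not_scalar (s := a) fun c e => hc ⟨c, fun x => by simp [e]⟩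
  have hq : Q d = 0 := by
    by_contra h0
    exact hd (h d h0)
  obtain ⟨x, hx, hdx⟩ := exists_nonsing_perp hQ hk d
  have hxd := (pb_comm x d).trans hdx
  obtain ⟨l, hl⟩ := Submodule.mem_span_singleton.1 (h x hx)
  obtain ⟨m, hm⟩ := Submodule.mem_span_singleton.1 (h (x + d) (by rw [Q_add', hq, hxd]; simpa))
  obtain ⟨n, hn⟩ := Submodule.mem_span_singleton.1 (h (x + -d) (by
    rw [Q_add', QuadraticMap.map_neg, hq, map_neg, hxd]; simpa))
  rw [map_add, ← hl] at hm
  rw [map_add, map_neg, ← hl] at hn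
  have h3 : (m + n - 2 * l) • x + (m - n) • d = 0 := by linear_combination (norm := module) hm + hn
  have h4 := congrArg (QuadraticMap.polarBilin Q x) h3
  simp only [map_add, map_smul, hxd, pb_self, smul_eq_mul, mul_zero, add_zero, map_zero,
    mul_eq_zero, h2, hx, or_false] at h4
  rw [h4, zero_smul, zero_add] at h3
  have hd0 : d ≠ 0 := by rintro rfl; simp at hd
  have h5 : m = n := sub_eq_zero.1 ((smul_eq_zero.1 h3).resolve_right hd0)
  have h6 : m = l := by
    apply mul_left_cancel₀ h2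
    linear_combination h4 + h5
  refine hd (Submodule.mem_span_singleton.2 ⟨l, ?_⟩)
  rw [h6] at hm
  linear_combination (norm := module) hm

theorem exists_sing_two (hQ : (QuadraticMap.polarBilin Q).SeparatingLeft)
    (hk : 3 ≤ finrank F W) {x y : W} (hx : Q x = 0) (hy : Q y = 0) (hx0 : x ≠ 0) (hy0 : y ≠ 0) :
    ∃ z, Q z = 0 ∧ QuadraticMap.polarBilin Q z x ≠ 0 ∧ QuadraticMap.polarBilin Q z y ≠ 0 := by
  by_cases hxy : QuadraticMap.polarBilin Q x y = 0
  · obtain ⟨z, -, h1, h2⟩ := exists_notMem_two (W := ⊤)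
      (Y := LinearMap.ker (QuadraticMap.polarBilin Q x))
      (Z := LinearMap.ker (QuadraticMap.polarBilin Q y))
      (fun h => hx0 (hQ x fun v => h Submodule.mem_top))
      (fun h => hy0 (hQ y fun v => h Submodule.mem_top))
    rw [LinearMap.mem_ker, pb_comm] at h1 h2
    refine ⟨z + (-(Q z / QuadraticMap.polarBilin Q z x)) • x, ?_, ?_, ?_⟩
    · rw [Q_add', H12.Q_smul, hx, map_smul, smul_eq_mul]
      field_simp
      ring
    · simpa only [map_add, map_smul, LinearMap.add_apply, LinearMap.smul_apply, pb_self, hx,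
        mul_zero, smul_zero, add_zero] using h1
    · simpa only [map_add, map_smul, LinearMap.add_apply, LinearMap.smul_apply, hxy,
        smul_zero, add_zero] using h2
  · have hnd : Submodule.span F {x, y} ⊓ perp (PQ.ofQuad Q) (Submodule.span F {x, y}) = ⊥ := by
      rw [eq_bot_iff]
      rintro v ⟨hv, hv'⟩
      obtain ⟨a, b, rfl⟩ := Submodule.mem_span_pair.1 hv
      have h1 : QuadraticMap.polarBilin Q x (a • x + b • y) = 0 :=
        mem_perp_span.1 hv' x (by simp)
      have h2 : QuadraticMap.polarBilin Q y (a • x + b • y) = 0 :=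
        mem_perp_span.1 hv' y (by simp)
      simp only [map_add, map_smul, pb_self, hx, hy, pb_comm y x, smul_eq_mul, mul_zero, zero_add,
        add_zero, mul_eq_zero, hxy, or_false] at h1 h2
      simp [h1, h2]
    obtain ⟨w, hw, hw'⟩ : ∃ w ∈ perp (PQ.ofQuad Q) (Submodule.span F {x, y}), Q w ≠ 0 := by
      by_contra hc
      push Not at hc
      have h1 := finrank_le_perp (P := PQ.ofQuad Q) (Submodule.span F {x, y})
      have h3 := finrank_span_pair_le (F := F) x y
      obtain ⟨v, hv, hv0⟩ := exists_ne_zero_mem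
        (X := perp (PQ.ofQuad Q) (Submodule.span F {x, y})) (by omega)
      have h4 := perp_nondeg hQ hnd
      exact hv0 ((Submodule.eq_bot_iff _).1 h4 v ⟨hv, fun u hu => polar_eq_zero_of_ts hc u hu v hv⟩)
    have h1 : QuadraticMap.polarBilin Q x w = 0 := mem_perp_span.1 hw x (by simp)
    have h2 : QuadraticMap.polarBilin Q y w = 0 := mem_perp_span.1 hw y (by simp)
    refine ⟨x + (-(Q w / QuadraticMap.polarBilin Q x y)) • y + w, ?_, ?_, ?_⟩
    · rw [Q_add', Q_add', H12.Q_smul, hx, hy]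
      simp only [map_add, map_smul, LinearMap.add_apply, LinearMap.smul_apply, h1, h2, smul_eq_mul]
      field_simp
      ring
    · simp only [map_add, map_smul, LinearMap.add_apply, LinearMap.smul_apply, pb_self, hx,
        pb_comm w x, h1, pb_comm y x, smul_eq_mul]
      field_simp
      simpa using hw'
    · simpa only [map_add, map_smul, LinearMap.add_apply, LinearMap.smul_apply, pb_self, hy,
        pb_comm w y, h2, smul_eq_mul, mul_zero, add_zero] using hxy

end Quad

section Ten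

variable {F U W V : Type*} [Field F] [AddCommGroup U] [Module F U] [AddCommGroup W]
  [Module F W] [AddCommGroup V] [Module F V] (T : TS F U W V)

theorem τ_left_inj {u : U} (hu : u ≠ 0) {w w' : W} (h : T.τ u w = T.τ u w') : w = w' := by
  rw [← sub_eq_zero, ← map_sub] at h
  exact sub_eq_zero.1 ((T.τ_eq_zero.1 h).resolve_left hu)

theorem τ_right_inj {w : W} (hw : w ≠ 0) {u u' : U} (h : T.τ u w = T.τ u' w) : u = u' :=
  τ_left_inj T.flip hw h

theorem eq_of_τ {g h : V ≃ₗ[F] V} (e : ∀ u w, g (T.τ u w) = h (T.τ u w)) : g = h :=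
  LinearEquiv.ext fun x => LinearMap.congr_fun (T.lext (f := (g : V →ₗ[F] V)) (g := h) e) x

theorem scalar_or {A : Type*} [AddCommGroup A] [Module F A] (s : A →ₗ[F] A) :
    (∃ c : F, ∀ x, s x = c • x) ∨ ∃ u, s u ∉ F ∙ u := by
  by_cases h : ∀ c : F, s ≠ c • LinearMap.id
  · exact Or.inr (exists_notMem_of_not_scalar h)
  · push Not at h
    obtain ⟨c, rfl⟩ := h
    exact Or.inl ⟨c, fun x => rfl⟩

theorem of_scalar_right {g : V ≃ₗ[F] V} {α : U ≃ₗ[F] U} {γ : W ≃ₗ[F] W}
    (e : ∀ u w, g (T.τ u w) = T.τ (α u) (γ w)) [Nontrivial W] {c : F} (hc : ∀ x, γ x = c • x) :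
    ∃ α' : U ≃ₗ[F] U, ∀ u w, g (T.τ u w) = T.τ (α' u) w := by
  have hc0 : c ≠ 0 := by
    rintro rfl
    obtain ⟨w, hw⟩ := exists_ne (0 : W)
    exact hw (by simpa using hc w)
  exact ⟨α.trans (LinearEquiv.smulOfNeZero F U c hc0), fun u w => by simp [e, hc]⟩

/-- A square-zero element of the tensor stabiliser lives in one factor. -/
theorem sqz (h2 : (2 : F) ≠ 0) [Nontrivial U] [Nontrivial W] {g : V ≃ₗ[F] V} (hg : g ∈ T.TG)
    (h : ∀ x, g (g x - x) = g x - x) :
    (∃ α : U ≃ₗ[F] U, ∀ u w, g (T.τ u w) = T.τ (α u) w) ∨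
      ∃ γ : W ≃ₗ[F] W, ∀ u w, g (T.τ u w) = T.τ u (γ w) := by
  obtain ⟨α, γ, e⟩ := hg
  rcases scalar_or (γ : W →ₗ[F] W) with ⟨c, hc⟩ | ⟨w, hw⟩
  · exact Or.inl (of_scalar_right T e hc)
  rcases scalar_or (α : U →ₗ[F] U) with ⟨c, hc⟩ | ⟨u, hu⟩
  · exact Or.inr (by
      obtain ⟨γ', h⟩ := of_scalar_right T.flip (g := g) (fun w u => e u w) hc
      exact ⟨γ', fun u w => h w u⟩)
  exfalso
  obtain ⟨φ, h0, h1⟩ := exists_dual_of_notMem_span hw 1
  have h3 := congrArg (T.cW φ) (h (T.τ u w))
  rw [LinearEquiv.coe_coe] at h1 hu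
  simp only [map_sub, e, TS.cW_τ, h0, h1, one_smul, zero_smul, sub_zero] at h3
  have h4 : φ (γ (γ w)) • α u = (2 : F) • u :=
    α.injective (by rw [map_smul, map_smul]; linear_combination (norm := module) h3)
  have h5 : φ (γ (γ w)) ≠ 0 := fun h6 => by
    rw [h6, zero_smul, eq_comm, smul_eq_zero] at h4
    rw [h4.resolve_left h2] at hu
    simp at hu
  refine hu (Submodule.mem_span_singleton.2 ⟨(φ (γ (γ w)))⁻¹ * 2, ?_⟩)
  rw [mul_smul, ← h4, smul_smul, inv_mul_cancel₀ h5, one_smul]

end Ten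

end H28.Low
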