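import Mathlib
import Cfsg.Agent.Base
import Cfsg.Agent.Lib.LowRows.SpO1

/-!
Symplectic tensor orthogonal: the standing data, and overgroups containing a transvection.
-/

set_option autoImplicit false
set_option linter.unusedSectionVars false

namespace H28.Low

open Module Cfsg H28 H97 H11.Ten

variable {F U W V : Type*} [Field F] [AddCommGroup U] [Module F U] [AddCommGroup W]
  [Module F W] [AddCommGroup V] [Module F V] [FiniteDimensional F U] [FiniteDimensional F W]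
  [FiniteDimensional F V]

/-- An alternating form on `V` which is the tensor product of `ω` and the polar form of `Q`. -/
structure SO (T : TS F U W V) (ω : LinearMap.BilinForm F U) (Q : QuadraticForm F W)
    (B : LinearMap.BilinForm F V) : Prop where
  two : (2 : F) ≠ 0
  ωalt : ∀ u, ω u u = 0
  ωnd : ω.SeparatingLeft
  Qnd : (QuadraticMap.polarBilin Q).SeparatingLeft
  alt : ∀ x, B x x = 0
  nd : B.SeparatingLeft
  Bτ : ∀ u w u' w', B (T.τ u w) (T.τ u' w') = ω u u' * QuadraticMap.polarBilin Q w w'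
  dimU : 1 ≤ finrank F U
  dimW : 3 ≤ finrank F W

/-- The isometry group of a bilinear form. -/
def Isom (B : LinearMap.BilinForm F V) : Subgroup (V ≃ₗ[F] V) where
  carrier := {g | ∀ x y, B (g x) (g y) = B x y}
  one_mem' _ _ := rfl
  mul_mem' {a b} ha hb x y := (ha _ _).trans (hb x y)
  inv_mem' {a} ha x y := by rw [← ha, le_apply_inv, le_apply_inv]

theorem isom_eq {B : LinearMap.BilinForm F V} (hA : ∀ x, B x x = 0) :
    (PQ.ofAlt B hA).Isom = Isom B := by
  ext g; exact PQ.mem_isom_ofAlt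

theorem isom_inv {B : LinearMap.BilinForm F V} {g : V ≃ₗ[F] V} (hg : g ∈ Isom B) (x y : V) :
    B x (g⁻¹ y) = B (g x) y := by rw [← hg, le_apply_inv]

namespace SO

variable {T : TS F U W V} {ω : LinearMap.BilinForm F U} {Q : QuadraticForm F W}
  {B : LinearMap.BilinForm F V} (S : SO T ω Q B)

local notation "β" => QuadraticMap.polarBilin Q

include S

theorem nontrivialU : Nontrivial U := Module.nontrivial_of_finrank_pos (R := F) S.dimU

theorem nontrivialW : Nontrivial W :=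
  Module.nontrivial_of_finrank_pos (R := F) (by have := S.dimW; omega)

theorem ωcomm (u v : U) : ω u v = -ω v u := alt_comm S.ωalt u v

theorem Bcomm (x y : V) : B x y = -B y x := alt_comm S.alt x y

theorem B_cW (u : U) (w : W) (x : V) : B (T.τ u w) x = ω u (T.cW (β w) x) := by
  have : B (T.τ u w) = ω u ∘ₗ T.cW (β w) := T.lext fun u' w' => by simp [S.Bτ, mul_comm]
  rw [this]; rfl

theorem B_cU (u : U) (w : W) (x : V) : B (T.τ u w) x = β w (T.cU (ω u) x) := by
  rw [S.B_cW, T.cW_cU]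

theorem exists_ω {u : U} (hu : u ≠ 0) : ∃ v, ω u v = 1 := by
  obtain ⟨v, -, h⟩ := exists_B_eq' (P := PQ.ofAlt ω S.ωalt) S.ωnd (H := ⊥) (u := u)
    (by simpa using hu) 1
  exact ⟨v, h⟩

theorem exists_ω' {u u' : U} (hu : u' ∉ F ∙ u) : ∃ v, ω u v = 0 ∧ ω u' v = 1 := by
  obtain ⟨v, h0, h⟩ := exists_B_eq' (P := PQ.ofAlt ω S.ωalt) S.ωnd hu 1
  exact ⟨v, h0 u (Submodule.mem_span_singleton_self u), h⟩

theorem exists_β {w : W} (hw : w ≠ 0) : ∃ x, β w x = 1 := by
  obtain ⟨v, -, h⟩ := exists_B_eq' (P := PQ.ofQuad Q) S.Qnd (H := ⊥) (u := w)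
    (by simpa using hw) 1
  exact ⟨v, h⟩

theorem β_ext {x y : W} (h : ∀ w, β w x = β w y) : x = y :=
  sub_eq_zero.1 (S.Qnd _ fun w => by rw [pb_comm, map_sub, h, sub_self])

theorem ω_ext {x y : U} (h : ∀ w, ω w x = ω w y) : x = y :=
  sub_eq_zero.1 (S.ωnd _ fun w => by rw [S.ωcomm, map_sub, h, sub_self, neg_zero])

theorem isom_of_τ {g : V ≃ₗ[F] V}
    (h : ∀ u w u' w', B (g (T.τ u w)) (g (T.τ u' w')) = ω u u' * β w w') : g ∈ Isom B := by
  intro x y
  refine T.ind (p := fun x => B (g x) (g y) = B x y) x (by simp) (fun u w => ?_)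
    fun x x' h1 h2 => by simp only [map_add, LinearMap.add_apply, h1, h2]
  refine T.ind (p := fun y => B (g (T.τ u w)) (g y) = B (T.τ u w) y) y (by simp)
    (fun u' w' => by rw [h, S.Bτ]) fun x x' h1 h2 => by simp only [map_add, h1, h2]

theorem opE_mem {α : U ≃ₗ[F] U} {γ : W ≃ₗ[F] W} (hα : α ∈ Isom ω)
    (hγ : γ ∈ (PQ.ofQuad Q).Isom) : T.opE α γ ∈ T.TG ⊓ Isom B :=
  ⟨T.opE_mem α γ, S.isom_of_τ fun u w u' w' => by
    rw [TS.opE_τ, TS.opE_τ, S.Bτ, hα, isom_pb hγ]⟩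

theorem isom_left {g : V ≃ₗ[F] V} (hg : g ∈ Isom B) {α : U ≃ₗ[F] U}
    (e : ∀ u w, g (T.τ u w) = T.τ (α u) w) : α ∈ Isom ω := fun u v => by
  have := S.nontrivialW
  obtain ⟨w, hw⟩ := exists_ne (0 : W)
  obtain ⟨x, hx⟩ := S.exists_β hw
  have := hg (T.τ u w) (T.τ v x)
  rwa [e, e, S.Bτ, S.Bτ, hx, mul_one, mul_one] at this

theorem isom_right {g : V ≃ₗ[F] V} (hg : g ∈ Isom B) {γ : W ≃ₗ[F] W}
    (e : ∀ u w, g (T.τ u w) = T.τ u (γ w)) (x y : W) : β (γ x) (γ y) = β x y := by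
  have := S.nontrivialU
  obtain ⟨u, hu⟩ := exists_ne (0 : U)
  obtain ⟨v, hv⟩ := S.exists_ω hu
  have := hg (T.τ u x) (T.τ v y)
  rwa [e, e, S.Bτ, S.Bτ, hv, one_mul, one_mul] at this

theorem exists_α {u u' : U} (hu : u ≠ 0) (hu' : u' ≠ 0) : ∃ α ∈ Isom ω, α u = u' := by
  obtain ⟨g, hg, e, -⟩ := (PQ.ofAlt ω S.ωalt).witt_step S.ωnd ⊥ (u := u) (v := u')
    (by simpa using hu) (by simpa using hu') trivial (by simp)
  exact ⟨g, hg.1, e⟩

theorem exists_α' {u a a' : U} (ha : a ∉ F ∙ u) (ha' : a' ∉ F ∙ u) (h : ω a' u = ω a u) :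
    ∃ α ∈ Isom ω, α u = u ∧ α a = a' := by
  obtain ⟨g, hg, e, e'⟩ := (PQ.ofAlt ω S.ωalt).witt_step S.ωnd (F ∙ u) ha ha' trivial (by
    intro x hx
    obtain ⟨c, rfl⟩ := Submodule.mem_span_singleton.1 hx
    change ω a' (c • u) = ω a (c • u)
    simp [h])
  exact ⟨g, hg.1, e' u (Submodule.mem_span_singleton_self u), e⟩

/-- The transvection `t_{u,c} ⊗ 1`. -/
noncomputable def tU (u : U) (c : F) : V ≃ₗ[F] V :=
  T.opE (LinearEquiv.transvection (f := c • ω u) (v := u) (by simp [S.ωalt])) 1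

theorem tU_τ (u : U) (c : F) (v : U) (w : W) :
    S.tU u c (T.τ v w) = T.τ (v + (c * ω u v) • u) w := T.opE_τ _ _ v w

theorem tU_apply (u : U) (c : F) (x : V) : S.tU u c x = x + c • T.τ u (T.cU (ω u) x) :=
  T.ind (p := fun x => S.tU u c x = x + c • T.τ u (T.cU (ω u) x)) x (by simp)
    (fun v w => by simp [S.tU_τ, smul_smul]) fun x y h1 h2 => by
      simp only [map_add, h1, h2, smul_add]; abel

theorem tU_mem (u : U) (c : F) : S.tU u c ∈ T.TG ⊓ Isom B :=
  S.opE_mem (fun x y => by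
    change ω (x + (c * ω u x) • u) (y + (c * ω u y) • u) = _
    simp only [map_add, map_smul, LinearMap.add_apply, LinearMap.smul_apply, S.ωalt, S.ωcomm x u,
      smul_eq_mul]
    ring) (Subgroup.one_mem _)

/-- The reflection `1 ⊗ r_w`. -/
noncomputable def sW (_ : SO T ω Q B) {w : W} (hw : Q w ≠ 0) : V ≃ₗ[F] V := T.opE 1 (rW hw)

theorem sW_τ {w : W} (hw : Q w ≠ 0) (u : U) (x : W) : S.sW hw (T.τ u x) = T.τ u (rW hw x) :=
  T.opE_τ _ _ u x

theorem sW_apply {w : W} (hw : Q w ≠ 0) (x : V) :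
    S.sW hw x = x - (Q w)⁻¹ • T.τ (T.cW (β w) x) w :=
  T.ind (p := fun x => S.sW hw x = x - (Q w)⁻¹ • T.τ (T.cW (β w) x) w) x (by simp)
    (fun v w' => by simp [S.sW_τ, rW_apply, smul_smul]) fun x y h1 h2 => by
      simp only [map_add, h1, h2, smul_add, LinearMap.add_apply]; abel

theorem sW_mem {w : W} (hw : Q w ≠ 0) : S.sW hw ∈ T.TG ⊓ Isom B :=
  S.opE_mem (Subgroup.one_mem _) (rW_mem hw)

theorem sW_sW {w : W} (hw : Q w ≠ 0) (x : V) : S.sW hw (S.sW hw x) = x := by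
  have : S.sW hw * S.sW hw = 1 := eq_of_τ T fun u x => by
    rw [le_mul_apply, S.sW_τ, S.sW_τ, ← le_mul_apply, rW_mul_self]; rfl
  exact LinearEquiv.congr_fun this x

theorem memL {u : U} {m : V} (h : ∀ u', ω u' u = 0 → ∀ w, B (T.τ u' w) m = 0) :
    ∃ w, m = T.τ u w := by
  obtain ⟨w, hw⟩ := T.flip.mem_col_of (w := u) (x := m) fun ψ hψ => by
    obtain ⟨u', hu'⟩ := exists_repr_dual (σ := RingHom.id F) (fun _ => rfl) ω S.ωnd ψ
    obtain rfl : ψ = ω u' := LinearMap.ext fun x => (hu' x).symm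
    exact S.β_ext fun w => by rw [map_zero, ← h u' hψ w, S.B_cU]; rfl
  exact ⟨w, hw.symm⟩

theorem memN {d : W} {m : V} (h : ∀ w, β w d = 0 → ∀ u, B (T.τ u w) m = 0) :
    ∃ u, m = T.τ u d := by
  obtain ⟨u, hu⟩ := T.mem_col_of (w := d) (x := m) fun φ hφ => by
    obtain ⟨w, hw⟩ := exists_repr_dual (σ := RingHom.id F) (fun _ => rfl) β S.Qnd φ
    obtain rfl : φ = β w := LinearMap.ext fun x => (hw x).symm
    exact S.ω_ext fun u => by rw [map_zero, ← h w hφ u, S.B_cW]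
  exact ⟨u, hu.symm⟩

/-- An isometry carrying each `U ⊗ w`, `w` non-singular, into some `U ⊗ w'`. -/
theorem mem_TG_of_nonsing {g : V ≃ₗ[F] V} (hg : g ∈ Isom B)
    (h : ∀ w, Q w ≠ 0 → ∃ w', ∀ u, g (T.τ u w) ∈ T.col w') : g ∈ T.TG := by
  have := S.nontrivialU
  have := S.nontrivialW
  have key : ∀ d, ∃ w', ∀ u, g (T.τ u d) ∈ T.col w' := fun d => by
    by_cases hd : Q d = 0
    swap
    · exact h d hd
    obtain ⟨x, hx, hdx⟩ := exists_nonsing_perp S.Qnd S.dimW d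
    have hxd := (pb_comm x d).trans hdx
    obtain ⟨x', hx'⟩ := h x hx
    obtain ⟨x'', hx''⟩ := h (x + d) (by rw [Q_add', hd, hxd]; simpa)
    have hx0 : x ≠ 0 := by rintro rfl; simp at hx
    have hq : β x' x' ≠ 0 := fun h0 => by
      obtain ⟨u, hu⟩ := exists_ne (0 : U)
      obtain ⟨v, hv⟩ := S.exists_ω hu
      obtain ⟨a, ha⟩ := T.mem_col.1 (hx' u)
      obtain ⟨b, hb⟩ := T.mem_col.1 (hx' v)
      have := hg (T.τ u x) (T.τ v x)
      rw [← ha, ← hb, S.Bτ, S.Bτ, h0, hv, pb_self] at this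
      simp [S.two, hx] at this
    have hx0' : x' ≠ 0 := by rintro rfl; simp at hq
    have hmap : (T.col x).map (g : V →ₗ[F] V) = T.col x' :=
      map_eq_of_maps (by rintro _ ⟨u, rfl⟩; exact hx' u)
        (by rw [T.finrank_col hx0, T.finrank_col hx0'])
    refine ⟨x'' - (β x' x'' / β x' x') • x', fun u => ?_⟩
    obtain ⟨a, ha⟩ := T.mem_col.1 (hx' u)
    obtain ⟨b, hb⟩ := T.mem_col.1 (hx'' u)
    have h1 : g (T.τ u d) = T.τ b x'' - T.τ a x' := by rw [ha, hb]; simp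
    have h2 : β x' x'' • b = β x' x' • a := S.ω_ext fun v => by
      obtain ⟨_, ⟨v', rfl⟩, hv'⟩ := hmap.ge (T.τ_mem_col v x')
      have h3 := hg (T.τ v' x) (T.τ u d)
      rw [show g (T.τ v' x) = T.τ v x' from hv', h1, map_sub, S.Bτ, S.Bτ, S.Bτ, hxd] at h3
      simp only [map_smul, smul_eq_mul]
      linear_combination h3
    refine T.mem_col.2 ⟨b, ?_⟩
    have h3 : a = (β x' x'' / β x' x') • b := by
      rw [div_eq_inv_mul, mul_smul, h2, smul_smul, inv_mul_cancel₀ hq, one_smul]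
    rw [h1, h3]
    simp
  exact T.mem_TG_of_col (Module.finBasis F W) ⟨0, by have := S.dimW; omega⟩ (fun i => key _)
    fun i _ => key _

theorem not_isom_le [Finite F] : ¬ Isom B ≤ T.TG := by
  intro hle
  have := S.nontrivialU
  obtain ⟨u, hu⟩ := exists_ne (0 : U)
  obtain ⟨v, hv⟩ := S.exists_ω hu
  obtain ⟨x, -, hx0, hx⟩ := isoK_quad Q ⊤ (by simpa using S.dimW)
  obtain ⟨y, hy⟩ := S.exists_β hx0
  have hxx : β x x = 0 := by rw [pb_self, show Q x = 0 from hx, mul_zero]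
  obtain ⟨g, hg, e⟩ := has_qrefl_isom (P := PQ.ofAlt B S.alt) S.nd (c := 1) (d := T.τ u x) trivial
  obtain ⟨α, γ, e'⟩ := hle hg.1
  have h1 := e' v y
  rw [e, PQ.qrefl_apply] at h1
  change _ + (1 * B _ _) • _ = _ at h1
  rw [S.Bτ, hv, hy] at h1
  have h2 := congrArg (T.cU (ω u)) h1
  have h3 := congrArg (T.cU (ω v)) h1
  simp only [map_add, map_smul, TS.cU_τ, hv, S.ωalt, S.ωcomm v u] at h2 h3
  have h4 := congrArg (β x) h2
  have h5 := congrArg (β x) h3
  simp only [map_add, map_smul, hxx, hy, smul_eq_mul, mul_zero, mul_one,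
    add_zero] at h4 h5
  have h6 : ω v (α v) = 0 := (mul_eq_zero.1 h5.symm).resolve_right fun h0 => by simp [h0] at h4
  simp [h6, hx0] at h3

variable {M : Subgroup (V ≃ₗ[F] V)}

/-- An overgroup containing a transvection with a singular pure centre is everything. -/
theorem isom_le_of_hasT [Finite F] (hH : T.TG ⊓ Isom B ≤ M) (hM : M ≤ Isom B) {u : U} {x : W}
    (hu : u ≠ 0) (hx0 : x ≠ 0) (hx : Q x = 0) {c : F} (hc : c ≠ 0)
    (h : HasT M (T.τ u x) (c • B (T.τ u x))) : Isom B ≤ M := by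
  have h1 : Full B M (T.τ u x) := fun a => by
    have := of_squares S.two (p := fun a => HasT M (T.τ u x) ((a * c) • B (T.τ u x)))
      (fun a b h1 h2 => by
        convert h1.sub_right h2 (by simp [S.alt]) (by simp [S.alt]) using 1
        ext y
        simp [sub_mul])
      (fun t => by
        by_cases ht : t = 0
        · simpa [ht] using hasT_zero_right _
        obtain ⟨α, hα, e⟩ := S.exists_α hu (smul_ne_zero ht hu)
        have hg := S.opE_mem hα (Subgroup.one_mem _)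
        have h2 := h.conj' (ψ := c • B (T.opE α 1 (T.τ u x))) (hH hg) fun y => by simp only [
          LinearMap.smul_apply, hg.2 _ y]
        rw [TS.opE_τ, e, map_smul, LinearMap.smul_apply, hasT_smul_iff] at h2
        refine Has.congr h2 fun y => ?_
        simp only [map_smul, LinearMap.smul_apply, smul_eq_mul, LinearEquiv.coe_one, id]
        ring_nf) (a / c)
    rwa [div_mul_cancel₀ _ hc] at this
  have h2 : ∀ v y, v ≠ 0 → y ≠ 0 → Q y = 0 → Full B M (T.τ v y) := fun v y hv hy0 hy => by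
    obtain ⟨α, hα, e⟩ := S.exists_α hu hv
    obtain ⟨γ, hγ, e', -⟩ := (PQ.ofQuad Q).witt_step S.Qnd ⊥ (u := x) (v := y)
      (by simpa using hx0) (by simpa using hy0) (sub_eq_zero.2 (hy.trans hx.symm)) (by simp)
    have := h1.conj hM (hH (S.opE_mem hα hγ))
    rwa [TS.opE_τ, e, e'] at this
  rw [← isom_eq S.alt]
  refine isom_le_of_conn S.nd S.two hM {m | ∃ v y, v ≠ 0 ∧ y ≠ 0 ∧ Q y = 0 ∧ m = T.τ v y} ?_ ?_ h1
  · refine T.eq_top fun v w => ?_
    have h3 : ∀ y, Q y = 0 → T.τ v y ∈ Submodule.span F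
        {m | ∃ v y, v ≠ 0 ∧ y ≠ 0 ∧ Q y = 0 ∧ m = T.τ v y} := fun y hy => by
      by_cases hv : v = 0
      · simp [hv]
      by_cases hy0 : y = 0
      · simp [hy0]
      exact Submodule.subset_span ⟨v, y, hv, hy0, hy, rfl⟩
    obtain ⟨e, he, hex, -⟩ := (PQ.ofQuad Q).exists_partner S.Qnd ⊥ (d := x) (by simpa using hx0)
      hx (by simp)
    replace he : Q e = 0 := he
    replace hex : β e x = 1 := hex
    have h4 : Q (w + (1 - β x w) • e + (-Q (w + (1 - β x w) • e)) • x) = 0 := by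
      have h6 : β (w + (1 - β x w) • e) x = 1 := by simp [hex, pb_comm w x]
      rw [Q_add' (w + _), H12.Q_smul, hx, map_smul, h6]
      simp
    have h5 : w = (w + (1 - β x w) • e + (-Q (w + (1 - β x w) • e)) • x) - (1 - β x w) • e +
        Q (w + (1 - β x w) • e) • x := by module
    rw [h5, map_add, map_sub, map_smul, map_smul]
    exact Submodule.add_mem _ (Submodule.sub_mem _ (h3 _ h4) (Submodule.smul_mem _ _ (h3 e he)))
      (Submodule.smul_mem _ _ (h3 x hx))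
  · rintro _ ⟨v, y, hv, hy0, hy, rfl⟩
    refine ⟨h2 v y hv hy0 hy, ?_⟩
    obtain ⟨a, -, ha1, ha2⟩ := exists_notMem_two (W := ⊤) (Y := LinearMap.ker (ω u))
      (Z := LinearMap.ker (ω v)) (fun h => hu (S.ωnd u fun v => h Submodule.mem_top))
      (fun h => hv (S.ωnd v fun v => h Submodule.mem_top))
    rw [LinearMap.mem_ker, S.ωcomm, neg_eq_zero] at ha1 ha2
    obtain ⟨z, hz, hz1, hz2⟩ := exists_sing_two S.Qnd S.dimW hx hy hx0 hy0
    exact ⟨T.τ a z, h2 a z (by rintro rfl; simp at ha1) (by rintro rfl; simp at hz1) hz,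
      by rw [S.Bτ]; exact mul_ne_zero ha1 hz1, by rw [S.Bτ]; exact mul_ne_zero ha2 hz2⟩

end SO

end H28.Low
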