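import Mathlib
import Cfsg.Agent.Base
import Cfsg.Agent.Lib.LowRows.SpO2

/-!
Symplectic tensor orthogonal: the stabiliser of `u ⊗ W` in a proper overgroup.
-/

set_option autoImplicit false
set_option linter.unusedSectionVars false

namespace H28.Low

open Module Cfsg H28 H97 H11.Ten

variable {F U W V : Type*} [Field F] [AddCommGroup U] [Module F U] [AddCommGroup W]
  [Module F W] [AddCommGroup V] [Module F V] [FiniteDimensional F U] [FiniteDimensional F W]
  [FiniteDimensional F V] [Finite F]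

/-- A proper overgroup of the tensor stabiliser. -/
structure Over (T : TS F U W V) (ω : LinearMap.BilinForm F U) (Q : QuadraticForm F W)
    (B : LinearMap.BilinForm F V) (M : Subgroup (V ≃ₗ[F] V)) : Prop extends SO T ω Q B where
  hH : T.TG ⊓ Isom B ≤ M
  hM : M ≤ Isom B
  hne : ¬ Isom B ≤ M
  hex : 4 ≤ finrank F W ∨ ∃ t : F, t ≠ 0 ∧ t * t ≠ 1

/-- `y ↦ β(x, y) w + ε β(w, y) x`. -/
noncomputable def sy (Q : QuadraticForm F W) (ε : F) (w x : W) : W →ₗ[F] W :=
  (QuadraticMap.polarBilin Q x).smulRight w + ε • (QuadraticMap.polarBilin Q w).smulRight x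

theorem sy_apply (Q : QuadraticForm F W) (ε : F) (w x y : W) :
    sy Q ε w x y = QuadraticMap.polarBilin Q x y • w + (ε * QuadraticMap.polarBilin Q w y) • x := by
  simp [sy, smul_smul]

theorem sy_conj {Q : QuadraticForm F W} {γ : W ≃ₗ[F] W} (hγ : γ ∈ (PQ.ofQuad Q).Isom) (ε : F)
    (w x : W) : (γ : W →ₗ[F] W) ∘ₗ sy Q ε w x ∘ₗ γ.symm = sy Q ε (γ w) (γ x) := by
  ext y
  have h : ∀ a, QuadraticMap.polarBilin Q a (γ.symm y) = QuadraticMap.polarBilin Q (γ a) y :=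
    fun a => by rw [← isom_pb hγ, LinearEquiv.apply_symm_apply]
  simp only [LinearMap.comp_apply, LinearEquiv.coe_coe, sy_apply, map_add, map_smul, h]

namespace Over

variable {T : TS F U W V} {ω : LinearMap.BilinForm F U} {Q : QuadraticForm F W}
  {B : LinearMap.BilinForm F V} {M : Subgroup (V ≃ₗ[F] V)} (S : Over T ω Q B M)

local notation "β" => QuadraticMap.polarBilin Q

include S

theorem memU {α : U ≃ₗ[F] U} (hα : α ∈ Isom ω) : T.opE α 1 ∈ M :=
  S.hH (S.opE_mem hα (Subgroup.one_mem _))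

theorem memW {γ : W ≃ₗ[F] W} (hγ : γ ∈ (PQ.ofQuad Q).Isom) : T.opE 1 γ ∈ M :=
  S.hH (S.opE_mem (Subgroup.one_mem _) hγ)

theorem tU_memM (u : U) (c : F) : S.tU u c ∈ M := S.hH (S.tU_mem u c)

theorem sW_memM {w : W} (hw : Q w ≠ 0) : S.sW hw ∈ M := S.hH (S.sW_mem hw)

theorem cU_opU {α : U ≃ₗ[F] U} (hα : α ∈ Isom ω) (u : U) (x : V) :
    T.cU (ω u) ((T.opE α 1)⁻¹ x) = T.cU (ω (α u)) x := S.β_ext fun w => by
  rw [← S.B_cU, ← S.B_cU, isom_inv (S.hM (S.memU hα)), TS.opE_τ]; rfl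

theorem cU_opW {γ : W ≃ₗ[F] W} (hγ : γ ∈ (PQ.ofQuad Q).Isom) (u : U) (x : V) :
    T.cU (ω u) ((T.opE 1 γ)⁻¹ x) = γ.symm (T.cU (ω u) x) := S.β_ext fun w => by
  rw [← S.B_cU, isom_inv (S.hM (S.memW hγ)), TS.opE_τ, S.B_cU, ← isom_pb hγ w,
    LinearEquiv.apply_symm_apply]; rfl

/-- The centre of the radical, as a space of endomorphisms of `W`. -/
def Y (u : U) : Submodule F (W →ₗ[F] W) where
  carrier := {a | Has M fun x => x + T.τ u (a (T.cU (ω u) x))}
  zero_mem' := has_id.congr fun x => by simp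
  add_mem' {a b} ha hb := (Has.comp ha hb).congr fun x => by
    simp [S.ωalt]; abel
  smul_mem' c a ha := by
    by_cases hu : u = 0
    · exact has_id.congr fun x => by simp [hu]
    refine of_squares S.two (p := fun c => Has M fun x => x + T.τ u ((c • a) (T.cU (ω u) x)))
      (fun c c' h1 h2 => ?_) (fun t => ?_) c
    · have h3 : Has M fun x => x - T.τ u ((c' • a) (T.cU (ω u) x)) :=
        h2.inv fun x => by simp [S.ωalt]
      exact (h1.comp h3).congr fun x => by simp [S.ωalt, sub_smul]; abel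
    · by_cases ht : t = 0
      · exact has_id.congr fun x => by simp [ht]
      obtain ⟨α, hα, e⟩ := S.exists_α hu (smul_ne_zero ht hu)
      refine (Has.conj ha (S.memU hα)).congr fun x => ?_
      rw [map_add, le_apply_inv, TS.opE_τ, S.cU_opU hα, e]
      simp [smul_smul]

theorem mem_Y {u : U} {a : W →ₗ[F] W} :
    a ∈ S.Y u ↔ Has M fun x => x + T.τ u (a (T.cU (ω u) x)) := Iff.rfl

theorem Y_conj {u : U} {a : W →ₗ[F] W} (ha : a ∈ S.Y u) {γ : W ≃ₗ[F] W}
    (hγ : γ ∈ (PQ.ofQuad Q).Isom) : (γ : W →ₗ[F] W) ∘ₗ a ∘ₗ γ.symm ∈ S.Y u :=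
  (Has.conj ha (S.memW hγ)).congr fun x => by
    rw [map_add, le_apply_inv, TS.opE_τ, S.cU_opW hγ]; rfl

theorem Y_symm {u : U} (hu : u ≠ 0) {a : W →ₗ[F] W} (ha : a ∈ S.Y u) (x y : W) :
    β (a x) y = β x (a y) := by
  obtain ⟨z, hz, e⟩ := ha
  obtain ⟨v, hv⟩ := S.exists_ω hu
  have := S.hM hz (T.τ v x) (T.τ v y)
  simp only [e, TS.cU_τ, hv, one_smul, map_add, LinearMap.add_apply, S.Bτ, S.ωalt,
    S.ωcomm v u] at this
  linear_combination this

theorem not_sy_sing {u : U} (hu : u ≠ 0) {w x : W} (hw : Q w ≠ 0) (hx : Q x = 0) (hx0 : x ≠ 0)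
    (hwx : β w x = 0) : sy Q 1 w x ∉ S.Y u := fun h => by
  have hxx : β x x = 0 := by rw [pb_self, hx, mul_zero]
  have h1 : ∀ c : F, w + c • x ∉ F ∙ x := fun c hh => by
    obtain ⟨a, ha⟩ := Submodule.mem_span_singleton.1 hh
    have := congrArg (β w) ha
    simp only [map_add, map_smul, hwx, pb_self, smul_zero, add_zero] at this
    exact mul_ne_zero S.two hw this.symm
  obtain ⟨γ, hγ, e, e'⟩ := (PQ.ofQuad Q).witt_step S.Qnd (F ∙ x) (u := w) (v := w + x)
    (by simpa using h1 0) (by simpa using h1 1) (by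
      change Q (w + x) - Q w = 0
      rw [Q_add', hx, hwx]; ring) (by
      intro y hy
      obtain ⟨c, rfl⟩ := Submodule.mem_span_singleton.1 hy
      change β (w + x) (c • x) = β w (c • x)
      simp only [map_add, map_smul, LinearMap.add_apply, hxx, add_zero])
  have h2 := S.Y_conj h hγ
  rw [sy_conj hγ, e, e' x (Submodule.mem_span_singleton_self x)] at h2
  refine S.hne (S.isom_le_of_hasT S.hH S.hM hu hx0 hx S.two
    (Has.congr ((S.Y u).sub_mem h2 h) fun y => ?_))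
  simp only [LinearMap.sub_apply, sy_apply, map_add, map_sub, map_smul, LinearMap.add_apply,
    LinearMap.smul_apply, S.B_cU, smul_eq_mul]
  module

theorem sy_all {u : U} {w x : W} (hw : Q w ≠ 0) (hx0 : x ≠ 0) (hwx : β w x = 0)
    (h : sy Q 1 w x ∈ S.Y u) {y : W} (hwy : β w y = 0) : sy Q 1 w y ∈ S.Y u := by
  set P := PQ.ofQuad Q
  have hw0 : w ≠ 0 := by rintro rfl; simp at hw
  have hnd : (F ∙ w) ⊓ perp P (F ∙ w) = ⊥ := by
    rw [eq_bot_iff]
    rintro _ ⟨hv, hv'⟩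
    obtain ⟨c, rfl⟩ := Submodule.mem_span_singleton.1 hv
    have : β w (c • w) = 0 := mem_perp_singleton.1 hv'
    rw [map_smul, pb_self, smul_eq_mul] at this
    simp [(mul_eq_zero.1 this).resolve_right (mul_ne_zero S.two hw)]
  have hirr : Irr P (perp P (F ∙ w)) := by
    refine (irr_or S.Qnd (perp_nondeg S.Qnd hnd)).resolve_right ?_
    rintro ⟨-, h2, -, h3⟩
    have h4 := finrank_perp (P := P) S.Qnd (F ∙ w)
    rw [finrank_span_singleton hw0] at h4
    rcases S.hex with h5 | ⟨t, ht, ht'⟩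
    · omega
    · exact ht' (h3 t ht)
  let Z : Submodule F W :=
    { carrier := {y | β w y = 0 ∧ sy Q 1 w y ∈ S.Y u}
      zero_mem' := ⟨by simp, by
        convert (S.Y u).zero_mem using 1
        ext; simp [sy_apply]⟩
      add_mem' := fun {a b} ha hb => ⟨by rw [map_add, ha.1, hb.1, add_zero], by
        convert (S.Y u).add_mem ha.2 hb.2 using 1
        ext y
        simp only [sy_apply, map_add, LinearMap.add_apply]
        module⟩
      smul_mem' := fun c a ha => ⟨by rw [map_smul, ha.1, smul_zero], by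
        convert (S.Y u).smul_mem c ha.2 using 1
        ext y
        simp only [sy_apply, map_smul, LinearMap.smul_apply, smul_eq_mul]
        module⟩ }
  rcases hirr Z (fun y hy => mem_perp_singleton.2 hy.1) (fun g hg hg' y hy => by
    have h1 := stab_of_perp S.Qnd hg hg'
    obtain ⟨c, hc⟩ := Submodule.mem_span_singleton.1
      ((h1 w).1 (Submodule.mem_span_singleton_self w))
    have hc0 : c ≠ 0 := by
      rintro rfl
      exact hw0 (by simpa using hc.symm)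
    refine ⟨mem_perp_singleton.1 ((hg' y).1 (mem_perp_singleton.2 hy.1)), ?_⟩
    have h2 := (S.Y u).smul_mem c⁻¹ (S.Y_conj hy.2 hg)
    rw [sy_conj hg, ← hc] at h2
    convert h2 using 1
    ext z
    simp only [sy_apply, map_smul, LinearMap.smul_apply, smul_eq_mul, smul_add, smul_smul]
    field_simp) with h1 | h1
  · exact absurd ((Submodule.eq_bot_iff Z).1 h1 x ⟨hwx, h⟩) hx0
  · exact (h1 ▸ mem_perp_singleton.2 hwy : y ∈ Z).2

theorem not_sy {u : U} (hu : u ≠ 0) {w x : W} (hw : Q w ≠ 0) (hx0 : x ≠ 0)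
    (hwx : β w x = 0) : sy Q 1 w x ∉ S.Y u := fun h => by
  obtain ⟨d, -, hd0, hd⟩ := isoK_quad Q ⊤ (by simpa using S.dimW)
  obtain ⟨y, hy0, hwy, hdy⟩ := exists_ker_two S.dimW (β w) (β d)
  have h1 := S.sy_all hw hx0 hwx h hwy
  by_cases hy : Q y = 0
  · exact S.not_sy_sing hu hw hy hy0 hwy h1
  have h2 : sy Q 1 y w ∈ S.Y u := by
    convert h1 using 1
    ext z
    simp only [sy_apply]
    module
  have hyd := (pb_comm y d).trans hdy
  exact S.not_sy_sing hu hy hd hd0 hyd (S.sy_all hy (by rintro rfl; simp at hw)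
    ((pb_comm y w).trans hwy) h2 hyd)

theorem Y_scalar {u : U} (hu : u ≠ 0) {a : W →ₗ[F] W} (ha : a ∈ S.Y u) :
    ∃ c : F, ∀ x, a x = c • x := by
  refine scalar_of_nonsing S.two S.Qnd S.dimW fun w hw => ?_
  by_contra hc
  have h2 := S.two
  refine S.not_sy hu hw (x := (-(Q w)⁻¹) • (a w - ((2 * Q w)⁻¹ * β w (a w)) • w)) (fun h0 => hc ?_)
    (by
      simp only [map_sub, map_smul, pb_self, smul_eq_mul]
      field_simp
      ring) ?_
  · rw [smul_eq_zero, sub_eq_zero] at h0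
    rw [h0.resolve_left (by simpa using hw)]
    exact Submodule.smul_mem _ _ (Submodule.mem_span_singleton_self w)
  · convert (S.Y u).sub_mem (S.Y_conj ha (rW_mem hw)) ha using 1
    ext y
    have e : (rW hw).symm y = rW hw y := rfl
    simp only [sy_apply, LinearMap.sub_apply, LinearMap.comp_apply, LinearEquiv.coe_coe, e,
      rW_apply, map_sub, map_smul, LinearMap.smul_apply, smul_eq_mul, S.Y_symm hu ha w y]
    match_scalars
    · field_simp; ring
    · ring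
    · ring

theorem of_fix_perp {u : U} (hu : u ≠ 0) {z : V ≃ₗ[F] V} (hz : z ∈ M)
    (h : ∀ x, T.cU (ω u) x = 0 → z x = x) : ∃ c : F, z = S.tU u c := by
  obtain ⟨v, hv⟩ := S.exists_ω hu
  have h1 : ∀ x, ∃ w, z x - x = T.τ u w := fun x => S.memL fun u' hu' w => by
    have h2 := h (T.τ u' w) (by simp [S.ωcomm u u', hu'])
    rw [map_sub]
    nth_rw 1 [← h2]
    rw [S.hM hz, sub_self]
  let a : W →ₗ[F] W := T.cU (ω.flip v) ∘ₗ ((z : V →ₗ[F] V) - LinearMap.id) ∘ₗ T.τ v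
  have h2 : ∀ x, z x = x + T.τ u (a (T.cU (ω u) x)) := fun x => by
    have h3 := h (x - T.τ v (T.cU (ω u) x)) (by simp [hv])
    obtain ⟨w, hw⟩ := h1 (T.τ v (T.cU (ω u) x))
    have h4 : a (T.cU (ω u) x) = w := by
      change T.cU (ω.flip v) (z _ - T.τ v _) = w
      rw [hw]; simp [hv]
    rw [h4, ← hw]
    rw [map_sub] at h3
    linear_combination (norm := module) h3
  obtain ⟨c, hc⟩ := S.Y_scalar hu (a := a) ⟨z, hz, h2⟩
  exact ⟨c, LinearEquiv.ext fun x => by rw [h2, hc, S.tU_apply, map_smul]⟩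

/-- `M` contains an element of the radical with vector part `ω(u₁, ·) ⊗ a`. -/
def Pure (_ : Over T ω Q B M) (u u₁ : U) (a : W →ₗ[F] W) : Prop :=
  ∃ z ∈ M, ∀ x, T.cU (ω u) x = 0 → z x = x + T.τ u (a (T.cU (ω u₁) x))

theorem exists_eu {u u₁ : U} (h : ω u u₁ = 0) : ∃ z ∈ M,
    (∀ v w, z (T.τ v w) = T.τ (v + ω u₁ v • u + ω u v • u₁) w) ∧
      ∀ x, z x = x + T.τ u (T.cU (ω u₁) x) + T.τ u₁ (T.cU (ω u) x) := by
  obtain ⟨α, hα, e⟩ := has_eu_isom (P := PQ.ofAlt ω S.ωalt) (d := u) (w := u₁) (c := 0) trivial h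
    trivial
  have e' : ∀ v w, T.opE α 1 (T.τ v w) = T.τ (v + ω u₁ v • u + ω u v • u₁) w := fun v w => by
    rw [TS.opE_τ, e, eu_apply]
    change T.τ (v + (ω u₁ v - (-1) * 0 * ω u v) • u - ((-1) * ω u v) • u₁) w = _
    simp
  refine ⟨_, S.memU hα.1, e', fun x => ?_⟩
  exact T.ind (p := fun x => T.opE α 1 x = x + T.τ u (T.cU (ω u₁) x) + T.τ u₁ (T.cU (ω u) x)) x
    (by simp) (fun v w => by simp [e']) fun x y h1 h2 => by simp only [map_add, h1, h2]; abel

theorem pure_id {u u₁ : U} (h : ω u u₁ = 0) : S.Pure u u₁ LinearMap.id := by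
  obtain ⟨z, hz, -, e⟩ := S.exists_eu h
  exact ⟨z, hz, fun x hx => by simp [e, hx]⟩

theorem inv_perp {u : U} {z : V ≃ₗ[F] V} (hz : z ∈ M) (h : ∀ w, z (T.τ u w) = T.τ u w) (x : V) :
    T.cU (ω u) (z x) = T.cU (ω u) x := S.β_ext fun w => by
  rw [← S.B_cU, ← S.B_cU]
  nth_rw 1 [← h w]
  rw [S.hM hz]

variable {S} in
theorem Pure.sub {u u₁ : U} (h : ω u u₁ = 0) {a b : W →ₗ[F] W} (ha : S.Pure u u₁ a)
    (hb : S.Pure u u₁ b) : S.Pure u u₁ (a - b) := by
  obtain ⟨z, hz, e⟩ := ha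
  obtain ⟨z', hz', e'⟩ := hb
  have h' : ω u₁ u = 0 := by rw [S.ωcomm, h, neg_zero]
  refine ⟨z'⁻¹ * z, M.mul_mem (M.inv_mem hz') hz, fun x hx => ?_⟩
  rw [le_mul_apply, le_inv_apply, LinearEquiv.symm_apply_eq, e x hx, e' _ (by simp [hx, S.ωalt])]
  simp [h', add_assoc]

variable {S} in
theorem Pure.conjW {u u₁ : U} {a : W →ₗ[F] W} (ha : S.Pure u u₁ a) {γ : W ≃ₗ[F] W}
    (hγ : γ ∈ (PQ.ofQuad Q).Isom) : S.Pure u u₁ ((γ : W →ₗ[F] W) ∘ₗ a ∘ₗ γ.symm) := by
  obtain ⟨z, hz, e⟩ := ha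
  have hg := S.memW hγ
  refine ⟨T.opE 1 γ * z * (T.opE 1 γ)⁻¹, M.mul_mem (M.mul_mem hg hz) (M.inv_mem hg), fun x hx => ?_⟩
  rw [le_mul_apply, le_mul_apply, e _ (by rw [S.cU_opW hγ, hx, map_zero]), map_add, le_apply_inv,
    TS.opE_τ, S.cU_opW hγ]
  rfl

variable {S} in
theorem Pure.conjU {u u₁ : U} {a : W →ₗ[F] W} (ha : S.Pure u u₁ a) {α : U ≃ₗ[F] U}
    (hα : α ∈ Isom ω) (hu : α u = u) : S.Pure u (α u₁) a := by
  obtain ⟨z, hz, e⟩ := ha
  have hg := S.memU hα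
  refine ⟨T.opE α 1 * z * (T.opE α 1)⁻¹, M.mul_mem (M.mul_mem hg hz) (M.inv_mem hg), fun x hx => ?_⟩
  rw [le_mul_apply, le_mul_apply, e _ (by rw [S.cU_opU hα, hu, hx]), map_add, le_apply_inv,
    TS.opE_τ, S.cU_opU hα, hu]
  rfl

variable {S} in
theorem Pure.comm {u u₁ u₂ : U} (hu : u ≠ 0) (h1 : ω u u₁ = 0) (h2 : ω u u₂ = 0)
    (h12 : ω u₁ u₂ = 1) {a b : W →ₗ[F] W} (ha : S.Pure u u₁ a) (hb : S.Pure u u₂ b) :
    ∃ c : F, ∀ y, ∃ y₁ y₂, (∀ w, β w y₂ = β (b w) y) ∧ (∀ w, β w y₁ = -β (a w) y) ∧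
      a y₂ = b y₁ + c • y := by
  obtain ⟨z, hz, e⟩ := ha
  obtain ⟨z', hz', e'⟩ := hb
  have h1' : ω u₁ u = 0 := by rw [S.ωcomm, h1, neg_zero]
  have h2' : ω u₂ u = 0 := by rw [S.ωcomm, h2, neg_zero]
  have h21 : ω u₂ u₁ = -1 := by rw [S.ωcomm, h12]
  have f : ∀ w, z (T.τ u w) = T.τ u w := fun w => by rw [e _ (by simp [S.ωalt])]; simp [h1']
  have f' : ∀ w, z' (T.τ u w) = T.τ u w := fun w => by rw [e' _ (by simp [S.ωalt])]; simp [h2']
  obtain ⟨c, hc⟩ := S.of_fix_perp hu (z := z * z' * (z' * z)⁻¹)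
    (M.mul_mem (M.mul_mem hz hz') (M.inv_mem (M.mul_mem hz' hz))) fun x hx => by
      obtain ⟨x, rfl⟩ := (z' * z).surjective x
      rw [le_mul_apply, S.inv_perp hz' f', S.inv_perp hz f] at hx
      rw [le_mul_apply, le_inv_apply_apply, le_mul_apply, le_mul_apply, e' x hx, e x hx, map_add,
        map_add, e' x hx, e x hx, f, f']
      abel
  obtain ⟨v, hv⟩ := S.exists_ω hu
  refine ⟨c, fun y => ⟨T.cU (ω u₂) (z (T.τ v y) - T.τ v y), T.cU (ω u₁) (z' (T.τ v y) - T.τ v y),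
    fun w => ?_, fun w => ?_, ?_⟩⟩
  · have h3 := S.hM hz' (T.τ u₁ w) (T.τ v y)
    have h4 := S.hM hz' (T.τ u (b w)) (T.τ v y)
    rw [e' _ (by simp [h1])] at h3
    rw [f', S.Bτ, hv] at h4
    simp only [TS.cU_τ, h21, neg_smul, one_smul, map_neg, map_add, LinearMap.add_apply,
      LinearMap.neg_apply] at h3
    rw [← S.B_cU, map_sub]
    linear_combination h3 + h4
  · have h3 := S.hM hz (T.τ u₂ w) (T.τ v y)
    have h4 := S.hM hz (T.τ u (a w)) (T.τ v y)
    rw [e _ (by simp [h2])] at h3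
    rw [f, S.Bτ, hv] at h4
    simp only [TS.cU_τ, h12, one_smul, map_add, LinearMap.add_apply] at h3
    rw [← S.B_cU, map_sub]
    linear_combination h3 - h4
  · have h3 : z (z' (T.τ v y)) = S.tU u c (z' (z (T.τ v y))) := by
      rw [← hc, ← le_mul_apply z' z, le_mul_apply, le_inv_apply_apply, le_mul_apply]
    have h4 := e (z' (T.τ v y) - T.τ v y) (by rw [map_sub, S.inv_perp hz' f', sub_self])
    have h5 := e' (z (T.τ v y) - T.τ v y) (by rw [map_sub, S.inv_perp hz f, sub_self])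
    rw [S.tU_apply, S.inv_perp hz' f', S.inv_perp hz f, TS.cU_τ, hv, one_smul] at h3
    rw [map_sub z] at h4
    rw [map_sub z'] at h5
    refine τ_left_inj T hu ?_
    rw [map_add, map_smul]
    linear_combination (norm := module) h3 - h4 + h5

theorem exists_u2 {u u₁ : U} (h : ω u u₁ = 0) (h' : u₁ ∉ F ∙ u) : ∃ α ∈ Isom ω, α u = u ∧
    ω u (α u₁) = 0 ∧ ω u₁ (α u₁) = 1 := by
  obtain ⟨v, hv, hv'⟩ := S.exists_ω' h'
  obtain ⟨α, hα, e, e'⟩ := S.exists_α' h' (a' := v) (fun hh => by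
    obtain ⟨c, rfl⟩ := Submodule.mem_span_singleton.1 hh
    simp [S.ωcomm u₁ u, h] at hv') (by rw [S.ωcomm, hv, S.ωcomm u₁, h])
  exact ⟨α, hα, e, by rw [e', hv], by rw [e', hv']⟩

variable {S} in
theorem Pure.sing {u u₁ : U} (hu : u ≠ 0) (h : ω u u₁ = 0) (h' : u₁ ∉ F ∙ u) {w x : W}
    (hw : Q w ≠ 0) (hwx : β w x = 0) (ha : S.Pure u u₁ (sy Q (-1) w x)) : Q x = 0 := by
  obtain ⟨α, hα, e, e1, e2⟩ := S.exists_u2 h h'
  obtain ⟨c, hc⟩ := Pure.comm hu h e1 e2 ha (ha.conjU hα e)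
  have hsk : ∀ y z, β (sy Q (-1) w x y) z = -β y (sy Q (-1) w x z) := fun y z => by
    simp only [sy_apply, map_add, map_smul, LinearMap.add_apply, LinearMap.smul_apply, smul_eq_mul,
      pb_comm y]
    ring
  have h1 : ∀ y, -sy Q (-1) w x (sy Q (-1) w x y) = sy Q (-1) w x (sy Q (-1) w x y) + c • y :=
    fun y => by
      obtain ⟨y₁, y₂, a1, a2, a3⟩ := hc y
      rw [S.β_ext (x := y₂) (y := -sy Q (-1) w x y) fun v => by rw [a1, hsk, map_neg],
        S.β_ext (x := y₁) (y := sy Q (-1) w x y) fun v => by rw [a2, hsk, neg_neg], map_neg] at a3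
      exact a3
  obtain ⟨y, hy0, hwy, hxy⟩ := exists_ker_two S.dimW (β w) (β x)
  have h2 := h1 y
  simp only [sy_apply, hwy, hxy, zero_smul, mul_zero, add_zero, map_zero, neg_zero,
    zero_add] at h2
  have hc0 : c = 0 := (smul_eq_zero.1 h2.symm).resolve_right hy0
  have h3 := congrArg (β w) (h1 w)
  simp only [hc0, sy_apply, map_add, map_smul, map_neg, pb_comm x w, hwx, pb_self, smul_eq_mul]
    at h3
  have h4 : (2 * 2 * 2 * 2 * Q w * Q w) * Q x = 0 := by linear_combination h3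
  simpa [S.two, hw] using h4

variable {S} in
theorem Pure.scalar {u u₁ : U} (hu : u ≠ 0) (h : ω u u₁ = 0) (h' : u₁ ∉ F ∙ u) {a : W →ₗ[F] W}
    (ha : S.Pure u u₁ a) : ∃ c : F, ∀ x, a x = c • x := by
  refine scalar_of_nonsing S.two S.Qnd S.dimW fun w hw => ?_
  by_contra hc
  have h2 := S.two
  obtain ⟨α, -, -, e1, e2⟩ := S.exists_u2 h h'
  obtain ⟨c, hc'⟩ := Pure.comm hu h e1 e2 ha (S.pure_id e1)
  have h3 : ∀ v y, β v (a y) = c * β v y - β (a v) y := fun v y => by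
    obtain ⟨y₁, y₂, a1, a2, a3⟩ := hc' y
    rw [S.β_ext (x := y₂) (y := y) a1] at a3
    rw [a3]
    simp only [LinearMap.id_apply, map_add, map_smul, a2, smul_eq_mul]
    ring
  have h4 : β w (a w) = c * Q w := by
    have := h3 w w
    rw [pb_comm (a w) w, pb_self] at this
    apply mul_left_cancel₀ h2
    linear_combination this
  obtain ⟨x, hx⟩ : ∃ x, x = (Q w)⁻¹ • (a w - (c / 2) • w) := ⟨_, rfl⟩
  have hwx : β w x = 0 := by
    simp only [hx, map_sub, map_smul, pb_self, smul_eq_mul, h4]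
    field_simp
    ring
  have hx0 : x ≠ 0 := fun h0 => hc (by
    rw [hx, smul_eq_zero, sub_eq_zero] at h0
    rw [h0.resolve_left (by simpa using hw)]
    exact Submodule.smul_mem _ _ (Submodule.mem_span_singleton_self w))
  have h5 : S.Pure u u₁ (sy Q (-1) w x) := by
    convert (ha.conjW (rW_mem hw)).sub h ha using 1
    ext y
    have e : (rW hw).symm y = rW hw y := rfl
    simp only [hx, sy_apply, LinearMap.sub_apply, LinearMap.comp_apply, LinearEquiv.coe_coe, e,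
      rW_apply, map_sub, map_smul, LinearMap.smul_apply, smul_eq_mul, h3 w y, h4]
    match_scalars
    · field_simp; ring
    · ring
    · ring
  have hq := h5.sing hu h h' hw hwx
  have hxx : β x x = 0 := by rw [pb_self, hq, mul_zero]
  obtain ⟨e, he, hex, hew⟩ := (PQ.ofQuad Q).exists_partner S.Qnd (F ∙ w) (d := x) (fun hh => by
    obtain ⟨t, rfl⟩ := Submodule.mem_span_singleton.1 hh
    rw [map_smul, pb_self, smul_eq_mul] at hwx
    simp [(mul_eq_zero.1 hwx).resolve_right (mul_ne_zero h2 hw)] at hx0) hq (by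
    intro y hy
    obtain ⟨t, rfl⟩ := Submodule.mem_span_singleton.1 hy
    change β x (t • w) = 0
    rw [map_smul, pb_comm, hwx, smul_zero])
  replace he : Q e = 0 := he
  replace hex : β e x = 1 := hex
  replace hew : β e w = 0 := hew w (Submodule.mem_span_singleton_self w)
  have hy : Q (x + e) = 1 := by rw [Q_add', hq, he, pb_comm, hex]; simp
  have hy' : Q (x + e) ≠ 0 := by rw [hy]; exact one_ne_zero
  have h6 := h5.conjW (rW_mem hy')
  rw [sy_conj (rW_mem hy'), rW_apply, rW_apply, hy] at h6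
  simp only [map_add, LinearMap.add_apply, pb_comm x w, hwx, hew, hxx, hex] at h6
  have h7 : S.Pure u u₁ (sy Q (-1) w (x + e)) := by
    convert h5.sub h h6 using 1
    ext y
    simp only [sy_apply, LinearMap.sub_apply, map_add, map_sub, map_smul, LinearMap.add_apply,
      LinearMap.smul_apply, smul_eq_mul]
    module
  exact hy' (h7.sing hu h h' hw (by rw [map_add, hwx, pb_comm, hew, add_zero]))

end Over

end H28.Low
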