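import Mathlib
import Cfsg.Agent.Base
import Cfsg.Agent.Lib.LowRows.SpO3

/-!
Symplectic tensor orthogonal: elements of a proper overgroup respecting some `u ⊗ W`.
-/

set_option autoImplicit false
set_option linter.unusedSectionVars false

namespace H28.Low

open Module Cfsg H28 H97 H11.Ten

variable {F U W V : Type*} [Field F] [AddCommGroup U] [Module F U] [AddCommGroup W]
  [Module F W] [AddCommGroup V] [Module F V] [FiniteDimensional F U] [FiniteDimensional F W]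
  [FiniteDimensional F V] [Finite F]

theorem row_inv (T : TS F U W V) {u u' : U} (hu : u ≠ 0) (hu' : u' ≠ 0) {y : V ≃ₗ[F] V}
    (h : ∀ w, ∃ w', y (T.τ u w) = T.τ u' w') (w : W) : ∃ w', y⁻¹ (T.τ u' w) = T.τ u w' := by
  have hmap : (T.flip.col u).map (y : V →ₗ[F] V) = T.flip.col u' :=
    map_eq_of_maps (by
      rintro _ ⟨w, rfl⟩
      obtain ⟨w', e⟩ := h w
      exact ⟨w', e.symm⟩) (by rw [T.flip.finrank_col hu, T.flip.finrank_col hu'])
  obtain ⟨_, ⟨w', rfl⟩, e⟩ := hmap.ge (T.flip.τ_mem_col w u')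
  exact ⟨w', by rw [← show y (T.τ u w') = T.τ u' w from e, le_inv_apply_apply]⟩

namespace Over

variable {T : TS F U W V} {ω : LinearMap.BilinForm F U} {Q : QuadraticForm F W}
  {B : LinearMap.BilinForm F V} {M : Subgroup (V ≃ₗ[F] V)} (S : Over T ω Q B M)

local notation "β" => QuadraticMap.polarBilin Q

include S

theorem perp_ind {u : U} {p : V → Prop} {x : V} (hx : T.cU (ω u) x = 0) (h0 : p 0)
    (h1 : ∀ u₁ w, ω u u₁ = 0 → p (T.τ u₁ w)) (h2 : ∀ x y, p x → p y → p (x + y)) : p x := by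
  rw [T.eq_sum (Module.finBasis F W) x]
  exact Finset.sum_induction _ p h2 h0 fun j _ => h1 _ _ (by rw [T.cW_cU, hx, map_zero])

/-- The radical of the stabiliser of `u ⊗ W`. -/
theorem qlem {u : U} (hu : u ≠ 0) {z : V ≃ₗ[F] V} (hz : z ∈ M)
    (h1 : ∀ w, z (T.τ u w) = T.τ u w) (h2 : ∀ u₁ w, ω u u₁ = 0 → ∃ w', z (T.τ u₁ w) - T.τ u₁ w = T.τ u w') :
    ∃ u₀, ω u u₀ = 0 ∧ ∀ v w, z (T.τ v w) = T.τ (v + ω u₀ v • u + ω u v • u₀) w := by
  have := S.nontrivialW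
  obtain ⟨v, hv⟩ := S.exists_ω hu
  obtain ⟨φ, hφ⟩ : ∃ φ : V →ₗ[F] W, ∀ x, φ x = T.cU (ω.flip v) (z x - x) :=
    ⟨T.cU (ω.flip v) ∘ₗ ((z : V →ₗ[F] V) - LinearMap.id), fun _ => rfl⟩
  have h3 : ∀ x, T.cU (ω u) x = 0 → z x = x + T.τ u (φ x) := fun x hx =>
    S.perp_ind (p := fun x => z x = x + T.τ u (φ x)) hx (by simp) (fun u₁ w h => by
      obtain ⟨w', e⟩ := h2 u₁ w h
      rw [hφ, e, ← sub_eq_iff_eq_add', e]
      simp [hv]) fun x y e1 e2 => by simp only [map_add, e1, e2]; abel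
  have h4 : ∀ u₁, ω u u₁ = 0 → ∃ c : F, ∀ w, φ (T.τ u₁ w) = c • w := fun u₁ h => by
    have h' : ω u₁ u = 0 := by rw [S.ωcomm, h, neg_zero]
    by_cases hm : u₁ ∈ F ∙ u
    · obtain ⟨c, rfl⟩ := Submodule.mem_span_singleton.1 hm
      exact ⟨0, fun w => by simp [hφ, h1]⟩
    have ht := S.tU_memM u₁ 1
    have f : ∀ w, S.tU u₁ 1 (T.τ u w) = T.τ u w := fun w => by simp [S.tU_τ, h']
    refine Pure.scalar (S := S) hu h hm (a := φ ∘ₗ T.τ u₁) ⟨z⁻¹ * (S.tU u₁ 1)⁻¹ * z * S.tU u₁ 1,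
      M.mul_mem (M.mul_mem (M.mul_mem (M.inv_mem hz) (M.inv_mem ht)) hz) ht, fun x hx => ?_⟩
    rw [le_mul_apply, le_mul_apply, le_mul_apply, le_inv_apply, LinearEquiv.symm_apply_eq,
      le_inv_apply, LinearEquiv.symm_apply_eq, h3 _ (by rw [S.inv_perp ht f, hx]), map_add z, h1,
      h3 x hx, map_add, map_add, f, f]
    conv_lhs => rw [S.tU_apply u₁ 1 x]
    conv_rhs => rw [S.tU_apply u₁ 1 x]
    simp only [one_smul, map_add, LinearMap.comp_apply]
    abel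
  obtain ⟨w₀, hw₀⟩ := exists_ne (0 : W)
  obtain ⟨w₁, hw₁⟩ := S.exists_β hw₀
  obtain ⟨u₀, hu₀⟩ := exists_repr_dual (σ := RingHom.id F) (fun _ => rfl) ω S.ωnd
    (β w₀ ∘ₗ φ ∘ₗ T.τ.flip w₁)
  replace hu₀ : ∀ x, ω u₀ x = β w₀ (φ (T.τ x w₁)) := hu₀
  have h5 : ω u u₀ = 0 := by rw [S.ωcomm, hu₀]; simp [hφ, h1]
  obtain ⟨z', hz', e, e'⟩ := S.exists_eu h5
  obtain ⟨c, hc⟩ := S.of_fix_perp hu (z := z'⁻¹ * z) (M.mul_mem (M.inv_mem hz') hz) fun x hx => by
    rw [le_mul_apply, le_inv_apply, LinearEquiv.symm_apply_eq]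
    refine S.perp_ind (p := fun x => z x = z' x) hx (by simp) (fun u₁ w h => ?_)
      fun x y e1 e2 => by simp only [map_add, e1, e2]
    obtain ⟨c, hc⟩ := h4 u₁ h
    rw [h3 _ (by simp [h]), e, hu₀, hc, hc, map_smul, map_smul, hw₁, h]
    simp
  refine ⟨u₀ + (c / 2) • u, by simp [h5, S.ωalt], fun v w => ?_⟩
  rw [show z = z' * S.tU u c by rw [← hc]; group, le_mul_apply, S.tU_τ, e]
  congr 2
  have h2 := S.two
  simp only [map_add, map_smul, LinearMap.add_apply, LinearMap.smul_apply, S.ωalt, S.ωcomm u₀ u, h5,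
    smul_eq_mul]
  match_scalars
  · ring
  · field_simp; ring
  · ring

theorem qlem_comm {u : U} (hu : u ≠ 0) {z : V ≃ₗ[F] V} (hz : z ∈ M)
    (h1 : ∀ w, z (T.τ u w) = T.τ u w)
    (h2 : ∀ u₁ w, ω u u₁ = 0 → ∃ w', z (T.τ u₁ w) - T.τ u₁ w = T.τ u w') {w : W} (hw : Q w ≠ 0)
    (x : V) : z (S.sW hw x) = S.sW hw (z x) := by
  obtain ⟨u₀, -, e⟩ := S.qlem hu hz h1 h2
  exact LinearEquiv.congr_fun (eq_of_τ T (g := z * S.sW hw) (h := S.sW hw * z) fun v a => by
    simp only [le_mul_apply, e, S.sW_τ]) x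

theorem row_aux {u : U} (hu : u ≠ 0) {y : V ≃ₗ[F] V} (hy : y ∈ M)
    (h : ∀ w, ∃ w', y (T.τ u w) = T.τ u w') : y ∈ T.TG := by
  have h' := row_inv T hu hu h
  have two := S.two
  obtain ⟨v, hv⟩ := S.exists_ω hu
  have hP : ∀ x, T.cU (ω u) x = 0 → T.cU (ω u) (y x) = 0 := fun x hx => S.β_ext fun w => by
    obtain ⟨w', e⟩ := h' w
    rw [← S.B_cU, ← le_apply_inv y (T.τ u w), S.hM hy, e, S.B_cU, hx, map_zero, map_zero]
  refine S.mem_TG_of_nonsing (S.hM hy) fun w hw => ?_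
  obtain ⟨s, hs⟩ : ∃ s, s = y * S.sW hw * y⁻¹ := ⟨_, rfl⟩
  have hsM : s ∈ M := hs ▸ M.mul_mem (M.mul_mem hy (S.sW_memM hw)) (M.inv_mem hy)
  have hs' : ∀ x, s (y x) = y (S.sW hw x) := fun x => by
    rw [hs, le_mul_apply, le_mul_apply, le_inv_apply_apply]
  have hc : ∀ u₁, ω u u₁ = 0 → ∀ x, T.τ u (T.cU (ω u₁) (s x)) + T.τ u₁ (T.cU (ω u) (s x)) =
      s (T.τ u (T.cU (ω u₁) x)) + s (T.τ u₁ (T.cU (ω u) x)) := fun u₁ h1 x => by
    have h1' : ω u₁ u = 0 := by rw [S.ωcomm, h1, neg_zero]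
    obtain ⟨z, hz, -, e⟩ := S.exists_eu h1
    obtain ⟨x, rfl⟩ := y.surjective x
    have h3 := congrArg y (S.qlem_comm hu (z := y⁻¹ * z * y)
      (M.mul_mem (M.mul_mem (M.inv_mem hy) hz) hy) (fun a => by
        obtain ⟨a', e'⟩ := h a
        rw [le_mul_apply, le_mul_apply, le_inv_apply, LinearEquiv.symm_apply_eq, e', e]
        simp [S.ωalt, h1']) (fun u₂ a h2 => by
        obtain ⟨a', e'⟩ := h' (T.cU (ω u₁) (y (T.τ u₂ a)))
        refine ⟨a', ?_⟩
        rw [le_mul_apply, le_mul_apply, e, hP _ (by simp [h2]), map_zero, add_zero, map_add,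
          le_inv_apply_apply, e', add_sub_cancel_left]) hw x)
    simp only [le_mul_apply, le_apply_inv] at h3
    rw [← hs', ← hs', le_apply_inv, e, e, map_add, map_add] at h3
    linear_combination (norm := module) h3
  have hc1 : ∀ x, s (T.τ u (T.cU (ω u) x)) = T.τ u (T.cU (ω u) (s x)) := fun x => by
    have h3 := hc u (S.ωalt u) x
    rw [← two_smul F, ← two_smul F] at h3
    exact (smul_right_injective V two h3).symm
  obtain ⟨w', e⟩ := h w
  have hw0 : w' ≠ 0 := by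
    rintro rfl
    rw [map_zero, LinearEquiv.map_eq_zero_iff, T.τ_eq_zero] at e
    rw [e.resolve_left hu] at hw
    simp at hw
  have h3 : ∀ a, ∃ t : F, s (T.τ u a) = T.τ u (a - t • w') := fun a => by
    obtain ⟨a', e'⟩ := h' a
    refine ⟨(Q w)⁻¹ * β w a', ?_⟩
    conv_lhs => rw [← le_apply_inv y (T.τ u a), hs', e', S.sW_τ, rW_apply, map_sub, map_smul,
      map_sub, map_smul, e, ← e', le_apply_inv]
    rw [map_sub, map_smul]
  have h4 : s (T.τ u w') = -T.τ u w' := by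
    rw [← e, hs', S.sW_τ, rW_apply, pb_self, ← map_neg, ← map_neg]
    congr 2
    match_scalars
    field_simp
    ring
  have h5 : ∀ a (t : F), s (T.τ u a) = T.τ u (a - t • w') → t * Q w' = β w' a := fun a t ht => by
    have h6 := hc1 (T.τ v a)
    rw [TS.cU_τ, hv, one_smul, ht] at h6
    have h7 := S.hM hsM (T.τ u w') (T.τ v a)
    rw [h4, map_neg, LinearMap.neg_apply, S.B_cU, ← τ_left_inj T hu h6, S.Bτ, hv, map_sub, map_smul,
      pb_self] at h7
    apply mul_left_cancel₀ two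
    simp only [smul_eq_mul] at h7
    linear_combination h7
  have hw' : Q w' ≠ 0 := fun h0 => by
    obtain ⟨a, ha⟩ := S.exists_β hw0
    obtain ⟨t, ht⟩ := h3 a
    have := h5 a t ht
    simp [h0, ha] at this
  have h6 : ∀ a, s (T.τ u a) = T.τ u (rW hw' a) := fun a => by
    obtain ⟨t, ht⟩ := h3 a
    rw [ht, rW_apply, ← h5 a t ht]
    congr 3
    field_simp
  have hrr : ∀ a, rW hw' (rW hw' a) = a := fun a => LinearEquiv.congr_fun (rW_mul_self hw') a
  have h7 : ∀ a, T.cU (ω u) (s (T.τ v a)) = rW hw' a := fun a => by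
    have h8 := hc1 (T.τ v a)
    rw [TS.cU_τ, hv, one_smul, h6] at h8
    exact (τ_left_inj T hu h8).symm
  obtain ⟨u₀, h0, ek⟩ := S.qlem hu (z := s * S.sW hw') (M.mul_mem hsM (S.sW_memM hw'))
    (fun a => by rw [le_mul_apply, S.sW_τ, h6, hrr]) fun u₁ a h1 => by
      have h8 := hc u₁ h1 (T.τ v (rW hw' a))
      rw [h7, hrr, TS.cU_τ, TS.cU_τ, hv, one_smul, h6] at h8
      refine ⟨T.cU (ω u₁) (s (T.τ v (rW hw' a))) - rW hw' (ω u₁ v • rW hw' a), ?_⟩
      rw [le_mul_apply, S.sW_τ, map_sub]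
      linear_combination (norm := module) -h8
  have h8 : ∀ b a, s (T.τ b a) = T.τ (b + ω u₀ b • u + ω u b • u₀) (rW hw' a) := fun b a => by
    rw [← ek, le_mul_apply, S.sW_τ, hrr]
  refine ⟨w', fun b => T.mem_col_of fun φ hφ => ?_⟩
  have h9 : ∀ x, T.cW φ (s x) = T.cW φ x + ω u₀ (T.cW φ x) • u + ω u (T.cW φ x) • u₀ := fun x =>
    T.ind (p := fun x => T.cW φ (s x) = T.cW φ x + ω u₀ (T.cW φ x) • u + ω u (T.cW φ x) • u₀) x
      (by simp) (fun b a => by simp [h8, rW_apply, hφ, smul_smul, mul_comm]) fun x x' e1 e2 => by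
        simp only [map_add, e1, e2, add_smul]; abel
  have h10 := h9 (y (T.τ b w))
  rw [hs', S.sW_τ, show rW hw w = -w from Module.reflection_apply_self _, map_neg, map_neg,
    map_neg] at h10
  have h11 := congrArg (ω u) h10
  have h12 := congrArg (ω u₀) h10
  simp only [map_neg, map_add, map_smul, S.ωalt, h0, S.ωcomm u₀ u, smul_zero, add_zero,
    neg_zero] at h11 h12
  rw [show ω u (T.cW φ (y (T.τ b w))) = 0 from mul_left_cancel₀ two (by linear_combination -h11),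
    show ω u₀ (T.cW φ (y (T.τ b w))) = 0 from mul_left_cancel₀ two (by linear_combination -h12)]
    at h10
  exact smul_right_injective U two (by linear_combination (norm := module) -h10)

/-- An element carrying some `u ⊗ W` into some `u' ⊗ W` stabilises the decomposition. -/
theorem row {u u' : U} (hu : u ≠ 0) (hu' : u' ≠ 0) {y : V ≃ₗ[F] V} (hy : y ∈ M)
    (h : ∀ w, ∃ w', y (T.τ u w) = T.τ u' w') : y ∈ T.TG := by
  obtain ⟨α, hα, e⟩ := S.exists_α hu' hu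
  have h1 := S.row_aux hu (M.mul_mem (S.memU hα) hy) fun w => by
    obtain ⟨w', e'⟩ := h w
    exact ⟨w', by rw [le_mul_apply, e', TS.opE_τ, e]; rfl⟩
  simpa using T.TG.mul_mem (T.TG.inv_mem (T.opE_mem α 1)) h1

theorem fix_row {u : U} (hu : u ≠ 0) {x : V ≃ₗ[F] V} (hx : x ∈ M)
    (h : ∀ w, x (T.τ u w) = T.τ u w) : ∃ α : U ≃ₗ[F] U, ∀ v w, x (T.τ v w) = T.τ (α v) w := by
  have := S.nontrivialW
  obtain ⟨α, γ, e⟩ := S.row hu hu hx fun w => ⟨w, h w⟩
  obtain ⟨v, hv⟩ := S.exists_ω hu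
  refine of_scalar_right T e (c := (ω (α u) v)⁻¹) fun w => ?_
  have h1 : ∀ w, ω (α u) v • γ w = w := fun w => by
    have := congrArg (T.cU (ω.flip v)) ((e u w).symm.trans (h w))
    simpa [hv] using this
  have h2 : ω (α u) v ≠ 0 := fun h0 => by
    obtain ⟨w, hw⟩ := exists_ne (0 : W)
    exact hw (by simpa [h0] using (h1 w).symm)
  conv_rhs => rw [← h1 w]
  rw [smul_smul, inv_mul_cancel₀ h2, one_smul]

omit S in
theorem exists_move {x : V ≃ₗ[F] V} (hx : x ≠ 1) {α : U ≃ₗ[F] U}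
    (e : ∀ v w, x (T.τ v w) = T.τ (α v) w) : ∃ v, α v - v ≠ 0 := by
  by_contra hc
  push Not at hc
  exact hx (eq_of_τ T fun v w => by rw [e, sub_eq_zero.1 (hc v)]; rfl)

theorem two_le : 2 ≤ finrank F U := by
  have := S.nontrivialU
  obtain ⟨u, hu⟩ := exists_ne (0 : U)
  obtain ⟨v, hv⟩ := S.exists_ω hu
  by_contra hc
  obtain ⟨c, rfl⟩ := (finrank_eq_one_iff_of_nonzero' (K := F) u hu).1 (by have := S.dimU; omega) v
  simp [S.ωalt] at hv

omit S in
theorem mul_finrank_le {X : Submodule F W} {R : Submodule F V} (h : ∀ u, ∀ w ∈ X, T.τ u w ∈ R) :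
    finrank F U * finrank F X ≤ finrank F R := by
  let b := Module.finBasis F U
  let f : (Fin (finrank F U) → X) →ₗ[F] R := LinearMap.codRestrict R
    (∑ i, T.τ (b i) ∘ₗ X.subtype ∘ₗ LinearMap.proj i) fun x => by
      simp only [LinearMap.sum_apply]
      exact R.sum_mem fun i _ => h _ _ (x i).2
  have := LinearMap.finrank_le_finrank_of_injective (f := f) (by
    rw [← LinearMap.ker_eq_bot, LinearMap.ker_eq_bot']
    intro x hx
    ext i
    have := congrArg (fun y : R => T.cU (b.coord i) y) hx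
    simpa [f, Finsupp.single_apply] using this)
  rwa [Module.finrank_pi_fintype, Finset.sum_const, Finset.card_univ, Fintype.card_fin,
    smul_eq_mul] at this

theorem tU_ne_one {u : U} (hu : u ≠ 0) {c : F} (hc : c ≠ 0) : S.tU u c ≠ 1 := fun h => by
  have := S.nontrivialW
  obtain ⟨v, hv⟩ := S.exists_ω hu
  obtain ⟨w, hw⟩ := exists_ne (0 : W)
  have h1 := LinearEquiv.congr_fun h (T.τ v w)
  rw [S.tU_τ] at h1
  simpa [hv, hc, hu] using τ_right_inj T hw h1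

/-- A conjugate of `t ⊗ 1` lies in the tensor stabiliser only in the obvious way. -/
theorem r1 (hd : 3 ≤ finrank F U ∨ finrank F W = 3) {u : U} (hu : u ≠ 0) {c : F} (hc : c ≠ 0)
    {y : V ≃ₗ[F] V} (hy : y ∈ M) (h : y * S.tU u c * y⁻¹ ∈ T.TG) : y ∈ T.TG := by
  have := S.nontrivialU
  have := S.nontrivialW
  obtain ⟨g, hg⟩ : ∃ g, g = y * S.tU u c * y⁻¹ := ⟨_, rfl⟩
  rw [← hg] at h
  have hgM : g ∈ M := hg ▸ M.mul_mem (M.mul_mem hy (S.tU_memM u c)) (M.inv_mem hy)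
  have hg1 : g ≠ 1 := fun h1 => S.tU_ne_one hu hc (by rwa [hg, conj_eq_one_iff] at h1)
  have e : ∀ x, g (y x) - y x = y (T.τ u (c • T.cU (ω u) x)) := fun x => by
    rw [hg, le_mul_apply, le_mul_apply, le_inv_apply_apply, S.tU_apply]
    simp
  have hsq : ∀ x, g (g x - x) = g x - x := fun x => by
    obtain ⟨x, rfl⟩ := y.surjective x
    rw [e, ← sub_eq_zero, e]
    simp [S.ωalt]
  rcases sqz T S.two h hsq with ⟨α, e'⟩ | ⟨γ, e'⟩
  · obtain ⟨v, hv⟩ := exists_move hg1 e'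
    refine (T.TG.inv_mem_iff).1 (S.row hv hu (M.inv_mem hy) fun w => ?_)
    obtain ⟨x, hx⟩ := y.surjective (T.τ v w)
    exact ⟨_, by rw [map_sub, LinearMap.sub_apply, ← e', ← hx, e, le_inv_apply_apply]⟩
  exfalso
  obtain ⟨v, hv⟩ := S.exists_ω hu
  obtain ⟨ν, hν⟩ : ∃ ν : W →ₗ[F] W, ∀ w, ν w = γ w - w := ⟨(γ : W →ₗ[F] W) - 1, fun _ => rfl⟩
  have h1 : ∀ a w, g (T.τ a w) - T.τ a w = T.τ a (ν w) := fun a w => by rw [e', hν, map_sub]
  have h2 : ∀ w, γ (ν w) = ν w := fun w => τ_left_inj T hu (by rw [← e', ← h1, hsq])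
  have h3 : ∀ a w, β (ν a) w = -β a (ν w) := fun a w => by
    have h4 := S.isom_right (S.hM hgM) e' a (ν w)
    have h5 := S.isom_right (S.hM hgM) e' a w
    rw [h2] at h4
    simp only [hν, map_sub, LinearMap.sub_apply] at h4 ⊢
    linear_combination h5 - h4
  have h4 : finrank F U * finrank F (LinearMap.range ν) ≤ finrank F W := by
    rw [← T.flip.finrank_col hu, ← LinearEquiv.finrank_map_eq y]
    refine mul_finrank_le (T := T) ?_
    rintro a _ ⟨w, rfl⟩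
    obtain ⟨x, hx⟩ := y.surjective (T.τ a w)
    exact ⟨_, T.flip.τ_mem_col _ u, by rw [← h1, ← hx, e]; rfl⟩
  have h5 := S.two_le
  have h6 := S.dimW
  obtain ⟨w, hw, hw'⟩ := exists_nonsing_of_large S.Qnd
    (X := perp (PQ.ofQuad Q) (LinearMap.range ν)) (by
      have := finrank_le_perp (P := PQ.ofQuad Q) (LinearMap.range ν)
      rcases hd with hd | hd
      · have := Nat.mul_le_mul_right (finrank F (LinearMap.range ν)) hd
        omega
      · have := Nat.mul_le_mul_right (finrank F (LinearMap.range ν)) h5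
        omega)
  have h7 : ∀ x, S.sW hw' (g x - x) = g x - x := fun x =>
    T.ind (p := fun x => S.sW hw' (g x - x) = g x - x) x (by simp) (fun a b => by
      rw [h1, S.sW_τ, rW_apply, pb_comm, show β (ν b) w = 0 from hw _ ⟨b, rfl⟩]
      simp) fun x x' e1 e2 => by rw [map_add, add_sub_add_comm, map_add, e1, e2]
  obtain ⟨α, eα⟩ := S.fix_row hu (x := y⁻¹ * S.sW hw' * y)
    (M.mul_mem (M.mul_mem (M.inv_mem hy) (S.sW_memM hw')) hy) fun a => by
      have h8 := e (T.τ v (c⁻¹ • a))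
      rw [TS.cU_τ, hv, one_smul, smul_smul, mul_inv_cancel₀ hc, one_smul] at h8
      rw [le_mul_apply, le_mul_apply, ← h8, h7, h8, le_inv_apply_apply]
  have hw0 : w ≠ 0 := by rintro rfl; simp at hw'
  obtain ⟨a, ha⟩ := exists_move (T := T) (fun h1 => by
    rw [show y⁻¹ * S.sW hw' * y = y⁻¹ * S.sW hw' * y⁻¹⁻¹ by simp, conj_eq_one_iff] at h1
    have h8 := LinearEquiv.congr_fun h1 (T.τ u w)
    rw [S.sW_τ, show rW hw' w = -w from Module.reflection_apply_self _] at h8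
    exact hw0 (smul_right_injective W S.two (by
      linear_combination (norm := module) -τ_left_inj T hu h8))) eα
  have h8 : finrank F W ≤ finrank F U := by
    rw [← T.flip.finrank_col ha, ← LinearEquiv.finrank_map_eq y, ← T.finrank_col hw0]
    refine Submodule.finrank_mono ?_
    rintro _ ⟨_, ⟨b, rfl⟩, rfl⟩
    change y (T.τ (α a - a) b) ∈ _
    rw [map_sub, LinearMap.sub_apply, ← eα, map_sub, le_mul_apply, le_mul_apply, le_apply_inv,
      S.sW_apply, sub_sub_cancel_left]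
    exact Submodule.neg_mem _ (Submodule.smul_mem _ _ (T.τ_mem_col _ _))
  have h9 : finrank F (LinearMap.range ν) ≤ 1 := by
    by_contra h9
    have := Nat.mul_le_mul_left (finrank F U) (show 2 ≤ finrank F (LinearMap.range ν) by omega)
    omega
  obtain ⟨b, hb⟩ : ∃ b, ν b ≠ 0 := by
    by_contra h10
    push Not at h10
    exact hg1 (eq_of_τ T fun a b => by rw [← sub_eq_zero]; exact (h1 a b).trans (by simp [h10]))
  obtain ⟨b', hb'⟩ := S.exists_β hb
  obtain ⟨t, ht⟩ := (finrank_eq_one_iff_of_nonzero' (K := F) (⟨ν b, b, rfl⟩ : LinearMap.range ν)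
    fun h => hb (congrArg Subtype.val h)).1 (le_antisymm h9
      (Module.finrank_pos_iff_exists_ne_zero.2
        ⟨⟨ν b, b, rfl⟩, fun h => hb (congrArg Subtype.val h)⟩)) ⟨ν b', b', rfl⟩
  replace ht : t • ν b = ν b' := congrArg Subtype.val ht
  have h10 : ∀ a, β (ν a) a = 0 := fun a => mul_left_cancel₀ S.two (by
    linear_combination h3 a a + pb_comm (Q := Q) (ν a) a)
  have h11 := h10 b'
  rw [← ht, map_smul, LinearMap.smul_apply, hb', smul_eq_mul, mul_one] at h11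
  have h12 := h3 b b'
  rw [hb', ← ht, h11] at h12
  simp at h12

theorem cent (hd : 3 ≤ finrank F U ∨ finrank F W = 3) {z x : V ≃ₗ[F] V} (hz : z ∈ M) (hz1 : z ≠ 1)
    {α : U ≃ₗ[F] U} (e : ∀ v w, z (T.τ v w) = T.τ (α v) w) (hsq : ∀ x, z (z x - x) = z x - x)
    (hx : x ∈ M) (h : x * z = z * x) : x ∈ T.TG := by
  obtain ⟨v, hv⟩ := exists_move hz1 e
  have h1 : ∀ w, T.τ (α v - v) w = z (T.τ v w) - T.τ v w := fun w => by simp [e]
  refine S.r1 hd hv one_ne_zero hx (S.row hv hv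
    (M.mul_mem (M.mul_mem hx (S.tU_memM _ _)) (M.inv_mem hx)) fun w => ⟨w, ?_⟩)
  have h2 : z (x⁻¹ (T.τ (α v - v) w)) = x⁻¹ (T.τ (α v - v) w) := by
    apply x.injective
    rw [← le_mul_apply, h, le_mul_apply, le_apply_inv, h1, hsq]
  have h3 : T.cU (ω (α v - v)) (x⁻¹ (T.τ (α v - v) w)) = 0 := S.β_ext fun a => by
    rw [← S.B_cU, h1 a, map_sub, LinearMap.sub_apply, map_zero]
    nth_rw 1 [← h2]
    rw [S.hM hz, sub_self]
  rw [le_mul_apply, le_mul_apply, S.tU_apply, h3]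
  simp

theorem r2 (hd : 3 ≤ finrank F U ∨ finrank F W = 3) {z g : V ≃ₗ[F] V} (hz : z ∈ M) (hz1 : z ≠ 1)
    {α : U ≃ₗ[F] U} (e : ∀ v w, z (T.τ v w) = T.τ (α v) w) (hsq : ∀ x, z (z x - x) = z x - x)
    (hg : g ∈ M) (h : g⁻¹ * z * g ∈ T.TG) : g ∈ T.TG := by
  have := S.nontrivialU
  have := S.nontrivialW
  have hz' : g⁻¹ * z * g ∈ M := M.mul_mem (M.mul_mem (M.inv_mem hg) hz) hg
  have hsq' : ∀ x, (g⁻¹ * z * g) ((g⁻¹ * z * g) x - x) = (g⁻¹ * z * g) x - x := fun x => by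
    apply g.injective
    simp only [le_mul_apply, map_sub g, le_apply_inv, hsq]
  obtain ⟨u, hu, hc⟩ : ∃ u, u ≠ 0 ∧ S.tU u 1 * (g⁻¹ * z * g) = g⁻¹ * z * g * S.tU u 1 := by
    rcases sqz T S.two h hsq' with ⟨α', e'⟩ | ⟨γ, e'⟩
    · obtain ⟨v, hv⟩ := exists_move (T := T) (fun h1 => hz1 (by
        rwa [show g⁻¹ * z * g = g⁻¹ * z * g⁻¹⁻¹ by simp, conj_eq_one_iff] at h1)) e'
      obtain ⟨w, hw⟩ := exists_ne (0 : W)
      have h1 : α' (α' v - v) = α' v - v := τ_right_inj T hw (by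
        have := hsq' (T.τ v w)
        rw [e', ← LinearMap.sub_apply, ← map_sub, e'] at this
        exact this)
      refine ⟨_, hv, eq_of_τ T fun a b => ?_⟩
      rw [le_mul_apply, le_mul_apply _ (S.tU _ _), e', S.tU_τ, S.tU_τ, e', map_add α',
        map_smul α', h1]
      nth_rw 1 [← h1]
      rw [S.isom_left (S.hM hz') e']
    · obtain ⟨u, hu⟩ := exists_ne (0 : U)
      exact ⟨u, hu, eq_of_τ T fun a b => by
        rw [le_mul_apply, le_mul_apply _ (S.tU _ _), e', S.tU_τ, S.tU_τ, e']⟩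
  refine S.r1 hd hu one_ne_zero hg (S.cent hd hz hz1 e hsq
    (M.mul_mem (M.mul_mem hg (S.tU_memM _ _)) (M.inv_mem hg)) ?_)
  calc g * S.tU u 1 * g⁻¹ * z = g * (S.tU u 1 * (g⁻¹ * z * g)) * g⁻¹ := by group
    _ = _ := by rw [hc]; group

end Over

end H28.Low
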