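import Mathlib
import Cfsg.Agent.Base
import Cfsg.Agent.Lib.LowRows.SpO4
import Cfsg.Agent.Lib.LowRows.TI

/-!
Symplectic tensor orthogonal: maximality when `dim U ≥ 3` or `dim W = 3`.
-/

set_option autoImplicit false
set_option linter.unusedSectionVars false

namespace H28.Low

open Module Cfsg H28 H97 H11.Ten

variable {F U W V : Type*} [Field F] [AddCommGroup U] [Module F U] [AddCommGroup W]
  [Module F W] [AddCommGroup V] [Module F V] [FiniteDimensional F U] [FiniteDimensional F W]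
  [FiniteDimensional F V] [Finite F]

/-- The invariant trilinear map. -/
noncomputable def θL (T : TS F U W V) (ω : LinearMap.BilinForm F U) (Q : QuadraticForm F W) :
    V →ₗ[F] V →ₗ[F] V →ₗ[F] V :=
  T.h.lift (LinearMap.mk₂ F
    (fun u w => (T.cU ∘ₗ ω ∘ₗ T.cW (QuadraticMap.polarBilin Q w)).compr₂ (T.τ u))
    (fun _ _ _ => by ext; simp) (fun _ _ _ => by ext; simp)
    (fun _ _ _ => by
      ext
      simp only [map_add, LinearMap.compr₂_apply, LinearMap.comp_apply, LinearMap.add_apply])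
    (fun _ _ _ => by
      ext
      simp only [map_smul, LinearMap.compr₂_apply, LinearMap.comp_apply, LinearMap.smul_apply]))

theorem θL_τ (T : TS F U W V) (ω : LinearMap.BilinForm F U) (Q : QuadraticForm F W) (u : U) (w : W)
    (x y : V) : θL T ω Q (T.τ u w) x y =
      T.τ u (T.cU (ω (T.cW (QuadraticMap.polarBilin Q w) x)) y) := by
  rw [θL, IsTensorProduct.lift_eq]; rfl

theorem mem_Fix_of_τ (T : TS F U W V) {θ : V →ₗ[F] V →ₗ[F] V →ₗ[F] V} {g : V ≃ₗ[F] V}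
    (h : ∀ u₁ w₁ u₂ w₂ u₃ w₃, θ (g (T.τ u₁ w₁)) (g (T.τ u₂ w₂)) (g (T.τ u₃ w₃)) =
      g (θ (T.τ u₁ w₁) (T.τ u₂ w₂) (T.τ u₃ w₃))) : g ∈ Fix θ := by
  refine mem_Fix.2 fun x y z => ?_
  refine T.ind (p := fun x => θ (g x) (g y) (g z) = g (θ x y z)) x (by simp) (fun u₁ w₁ => ?_)
    fun x x' e1 e2 => by simp only [map_add, LinearMap.add_apply, e1, e2]
  refine T.ind (p := fun y => θ (g (T.τ u₁ w₁)) (g y) (g z) = g (θ (T.τ u₁ w₁) y z)) y (by simp)
    (fun u₂ w₂ => ?_) fun x x' e1 e2 => by simp only [map_add, LinearMap.add_apply, e1, e2]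
  exact T.ind (p := fun z => θ (g (T.τ u₁ w₁)) (g (T.τ u₂ w₂)) (g z) =
    g (θ (T.τ u₁ w₁) (T.τ u₂ w₂) z)) z (by simp) (h u₁ w₁ u₂ w₂)
    fun x x' e1 e2 => by simp only [map_add, e1, e2]

namespace Over

variable {T : TS F U W V} {ω : LinearMap.BilinForm F U} {Q : QuadraticForm F W}
  {B : LinearMap.BilinForm F V} {M : Subgroup (V ≃ₗ[F] V)} (S : Over T ω Q B M)

local notation "β" => QuadraticMap.polarBilin Q

include S

theorem fixL_of_TG {g : V ≃ₗ[F] V} (hg : g ∈ M) (h : g ∈ T.TG) : g ∈ Fix (θL T ω Q) := by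
  obtain ⟨α, γ, e⟩ := h
  refine mem_Fix_of_τ T fun u₁ w₁ u₂ w₂ u₃ w₃ => ?_
  have h1 := S.hM hg (T.τ u₂ w₁) (T.τ u₃ w₂)
  rw [e, e, S.Bτ, S.Bτ] at h1
  simp only [e, θL_τ, TS.cW_τ, TS.cU_τ, map_smul, LinearMap.smul_apply, smul_smul]
  rw [mul_comm, h1, mul_comm]

theorem TG_of_fixL (hd : 3 ≤ finrank F U ∨ finrank F W = 3) {g : V ≃ₗ[F] V} (hg : g ∈ M)
    (h : g ∈ Fix (θL T ω Q)) : g ∈ T.TG := by
  have := S.nontrivialU
  have := S.nontrivialW
  obtain ⟨u, hu⟩ := exists_ne (0 : U)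
  obtain ⟨w₁, hw₁⟩ := exists_ne (0 : W)
  obtain ⟨w₂, hw₂⟩ := S.exists_β hw₁
  have hk : g * S.tU u 1 * g⁻¹ ∈ M := M.mul_mem (M.mul_mem hg (S.tU_memM u 1)) (M.inv_mem hg)
  refine S.r1 hd hu one_ne_zero hg (S.mem_TG_of_nonsing (S.hM hk) fun w _ => ⟨w, fun v => ?_⟩)
  have h1 : (g * S.tU u 1 * g⁻¹) (T.τ v w) =
      T.τ v w + θL T ω Q (g (T.τ u w₁)) (g (T.τ u w₂)) (T.τ v w) := by
    rw [le_mul_apply, le_mul_apply, S.tU_apply, map_add, le_apply_inv]
    conv_rhs => rw [← le_apply_inv g (T.τ v w), mem_Fix.1 h, le_apply_inv, θL_τ]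
    simp [hw₂]
  rw [h1]
  refine Submodule.add_mem _ (T.τ_mem_col _ _) ?_
  refine T.ind (p := fun x => θL T ω Q x (g (T.τ u w₂)) (T.τ v w) ∈ T.col w) _ (by simp)
    (fun a b => ?_) fun x x' e1 e2 => by
      simp only [map_add, LinearMap.add_apply]
      exact Submodule.add_mem _ e1 e2
  rw [θL_τ, TS.cU_τ, map_smul]
  exact Submodule.smul_mem _ _ (T.τ_mem_col _ _)

theorem tiL (hd : 3 ≤ finrank F U ∨ finrank F W = 3) {r : ℕ} (hr : 3 < (Nat.card F - 1) * r)
    {u v : Fin r → U} (hu : ∀ i j, ω (u i) (u j) = 0)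
    (hv : ∀ i j, ω (u i) (v j) = if i = j then 1 else 0) {N : Submodule F V}
    (hN : ∀ i w, T.τ (u i) w ∈ N) : TIData M (θL T ω Q) N := by
  have := S.nontrivialW
  refine ⟨r, fun i => T.τ (u i) ∘ₗ T.cU (ω (u i)), hr, fun i j x => by simp [hu],
    fun i x => hN _ _, fun c => ?_⟩
  obtain ⟨ν, hν⟩ : ∃ ν : U →ₗ[F] U, ∀ x, ν x = ∑ i, (c i * ω (u i) x) • u i :=
    ⟨∑ i, c i • (ω (u i)).smulRight (u i), fun x => by simp [LinearMap.sum_apply, smul_smul]⟩
  have h1 : ∀ i x, ω (u i) (ν x) = 0 := fun i x => by simp [hν, hu]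
  have h2 : ∀ x, ν (ν x) = 0 := fun x => by rw [hν]; simp [h1]
  let α : U ≃ₗ[F] U := LinearEquiv.ofLinearMap (1 + ν) (1 - ν) (by ext; simp [h2]) (by ext; simp [h2])
  have eα : ∀ x, α x = x + ν x := fun _ => rfl
  have hα : α ∈ Isom ω := fun x y => by
    have h3 : ω (ν x) (ν y) = 0 := by rw [hν x]; simp [h1]
    have h4 : ω (ν x) y + ω x (ν y) = 0 := by
      simp only [hν, map_sum, map_smul, LinearMap.sum_apply, LinearMap.smul_apply, smul_eq_mul,
        ← Finset.sum_add_distrib]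
      exact Finset.sum_eq_zero fun i _ => by rw [S.ωcomm x]; ring
    simp only [eα, map_add, LinearMap.add_apply]
    linear_combination h3 + h4
  have hz := S.memU hα
  have e : ∀ a w, T.opE α 1 (T.τ a w) = T.τ (α a) w := T.opE_τ α 1
  refine ⟨_, hz, fun x => ?_, S.fixL_of_TG hz (T.opE_mem _ _), fun hc g hg h => ?_⟩
  · refine T.ind (p := fun x => T.opE α 1 x = x + ∑ i, c i • (T.τ (u i) ∘ₗ T.cU (ω (u i))) x) x
      (by simp) (fun a w => by simp [eα, hν, smul_smul]) fun x x' e1 e2 => by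
        simp only [map_add, e1, e2, smul_add, Finset.sum_add_distrib]; abel
  refine S.fixL_of_TG hg (S.r2 hd hz (fun h1 => hc (funext fun j => ?_)) e (fun x => ?_) hg
    (S.TG_of_fixL hd (M.mul_mem (M.mul_mem (M.inv_mem hg) hz) hg) h))
  · obtain ⟨w, hw⟩ := exists_ne (0 : W)
    have h3 : α (v j) = v j := τ_right_inj T hw (by rw [← e, h1]; rfl)
    have h4 := congrArg (ω.flip (v j)) h3
    simpa [eα, hν, hv] using h4
  · refine T.ind (p := fun x => T.opE α 1 (T.opE α 1 x - x) = T.opE α 1 x - x) x (by simp)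
      (fun a w => ?_) fun x x' e1 e2 => by rw [map_add, add_sub_add_comm, map_add, e1, e2]
    rw [e, ← LinearMap.sub_apply, ← map_sub, e]
    simp [eα, h2]

theorem le_TG_of_frame (hd : 3 ≤ finrank F U ∨ finrank F W = 3) {r : ℕ}
    (hr : 3 < (Nat.card F - 1) * r) {u v : Fin r → U} (hu : ∀ i j, ω (u i) (u j) = 0)
    (hv : ∀ i j, ω (v i) (v j) = 0) (huv : ∀ i j, ω (u i) (v j) = if i = j then 1 else 0) :
    M ≤ T.TG := fun g hg => by
  refine S.TG_of_fixL hd hg (le_Fix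
    (S.tiL hd hr hu huv (N := ⨅ i, LinearMap.ker (T.cU (ω (u i)))) fun i w => by simp [hu])
    (S.tiL hd hr hv (v := fun i => -u i)
      (N := LinearMap.range (∑ i, T.τ (v i) ∘ₗ LinearMap.proj (φ := fun _ : Fin r => W) i))
      (fun i j => by rw [map_neg, ← S.ωcomm, huv]; simp [eq_comm])
      fun i w => ⟨Pi.single i w, by simp [LinearMap.sum_apply, Pi.single_apply, apply_ite]⟩) ?_ hg)
  rw [eq_bot_iff]
  rintro _ ⟨h1, f, rfl⟩
  have h2 : ∀ i, f i = 0 := fun i => by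
    simpa [LinearMap.sum_apply, huv] using (Submodule.mem_iInf _).1 h1 i
  simp [LinearMap.sum_apply, h2]

theorem five_le (h : ∃ t : F, t ≠ 0 ∧ t * t ≠ 1) : 5 ≤ Nat.card F := by
  classical
  obtain ⟨t, h0, h1⟩ := h
  have := Fintype.ofFinite F
  have h2 := S.two
  have h3 : t ≠ 1 := by rintro rfl; simp at h1
  have h4 : t ≠ -1 := by rintro rfl; simp at h1
  have h5 : (1 : F) ≠ -1 := fun h => h2 (by linear_combination h)
  have h6 : t ≠ -t := fun h => h0 (mul_left_cancel₀ h2 (by linear_combination h))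
  have h7 : ({0, 1, -1, t, -t} : Finset F).card = 5 := by
    rw [Finset.card_insert_of_notMem, Finset.card_insert_of_notMem, Finset.card_insert_of_notMem,
      Finset.card_pair h6]
    · simp [h4.symm, h3.symm]
    · simp [h5, h3.symm, eq_neg_iff_add_eq_zero, add_eq_zero_iff_neg_eq, h4.symm]
    · simp [h0, h0.symm]
  rw [Nat.card_eq_fintype_card, ← h7]
  exact Finset.card_le_univ _

theorem le_TG_one (hd : 3 ≤ finrank F U ∨ finrank F W = 3) : M ≤ T.TG := by
  have := S.nontrivialU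
  obtain ⟨u, hu⟩ := exists_ne (0 : U)
  obtain ⟨v, hv⟩ := S.exists_ω hu
  by_cases h5 : 5 ≤ Nat.card F
  · exact S.le_TG_of_frame hd (r := 1) (by omega) (u := fun _ => u) (v := fun _ => v)
      (fun _ _ => S.ωalt u) (fun _ _ => S.ωalt v) fun i j => by simp [hv, Subsingleton.elim i j]
  have h3 : 3 ≤ finrank F U := hd.resolve_right fun h => h5 (S.five_le (S.hex.resolve_left (by omega)))
  obtain ⟨a, ha, hua, hva⟩ := exists_ker_two h3 (ω u) (ω v)
  obtain ⟨b, hb⟩ := S.exists_ω ha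
  have h4 : 3 ≤ Nat.card F := by
    classical
    have := Fintype.ofFinite F
    have h5 : (1 : F) ≠ -1 := fun h => S.two (by linear_combination h)
    rw [Nat.card_eq_fintype_card, ← show ({0, 1, -1} : Finset F).card = 3 by
      rw [Finset.card_insert_of_notMem (by simp), Finset.card_pair h5]]
    exact Finset.card_le_univ _
  refine S.le_TG_of_frame hd (r := 2) (by omega) (u := ![u, a])
    (v := ![v, b + ω v b • u - ω u b • v]) ?_ ?_ ?_ <;>
  simp [Fin.forall_fin_two, S.ωalt, hua, hva, hv, hb, S.ωcomm a u, S.ωcomm a v, S.ωcomm v u,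
    S.ωcomm b v, S.ωcomm b u, mul_comm]

end Over

end H28.Low
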