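import Mathlib
import Cfsg.Agent.Base
import Cfsg.Agent.Lib.LowRows.SpO5
import Cfsg.Agent.Lib.Tensor.FormIdent

/-!
Symplectic tensor orthogonal: the case `dim U = 2`, `dim W ≥ 5`, and the matrix form.
-/

set_option autoImplicit false
set_option linter.unusedSectionVars false

namespace H28.Low

open Module Cfsg H28 H97 H11.Ten

section Abstract

variable {F U W V : Type*} [Field F] [AddCommGroup U] [Module F U] [AddCommGroup W]
  [Module F W] [AddCommGroup V] [Module F V] [FiniteDimensional F U] [FiniteDimensional F W]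
  [FiniteDimensional F V] [Finite F]

theorem exists_nonsing_two {Q : QuadraticForm F W} (hQ : (QuadraticMap.polarBilin Q).SeparatingLeft)
    (hk : 5 ≤ finrank F W) (φ ψ : Dual F W) : ∃ x, Q x ≠ 0 ∧ φ x = 0 ∧ ψ x = 0 := by
  obtain ⟨x, hx, hx'⟩ := exists_nonsing_of_large hQ (X := ⊤ ⊓ LinearMap.ker φ ⊓ LinearMap.ker ψ) (by
    have h1 := finrank_ker_dual ⊤ φ
    have h2 := finrank_ker_dual (⊤ ⊓ LinearMap.ker φ) ψ
    rw [finrank_top] at h1
    omega)
  exact ⟨x, hx', hx.1.2, hx.2⟩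

theorem exists_sing_nonsing {Q : QuadraticForm F W}
    (hQ : (QuadraticMap.polarBilin Q).SeparatingLeft) (hk : 5 ≤ finrank F W) (φ ψ : Dual F W) :
    ∃ d x, d ≠ 0 ∧ Q d = 0 ∧ Q x ≠ 0 ∧ QuadraticMap.polarBilin Q d x = 0 ∧ φ d = 0 ∧ ψ d = 0 ∧
      φ x = 0 ∧ ψ x = 0 := by
  obtain ⟨x, hx, h1, h3⟩ := exists_nonsing_two hQ hk φ ψ
  set Z : Submodule F W := ⊤ ⊓ LinearMap.ker φ ⊓ LinearMap.ker ψ
  have hZ : 3 ≤ finrank F Z := by
    have h1 := finrank_ker_dual ⊤ φ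
    have h2 := finrank_ker_dual (⊤ ⊓ LinearMap.ker φ) ψ
    rw [finrank_top] at h1
    change 3 ≤ finrank F ↥(⊤ ⊓ LinearMap.ker φ ⊓ LinearMap.ker ψ)
    omega
  obtain ⟨d, hd, hd0, hq⟩ := isoK_quad Q Z hZ
  replace hq : Q d = 0 := hq
  by_cases hdx : QuadraticMap.polarBilin Q d x = 0
  · exact ⟨d, x, hd0, hq, hx, hdx, hd.1.2, hd.2, h1, h3⟩
  obtain ⟨y, hy, hy0⟩ := exists_ne_zero_mem
    (X := Z ⊓ LinearMap.ker (QuadraticMap.polarBilin Q d) ⊓
      LinearMap.ker (QuadraticMap.polarBilin Q x)) (by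
    have h1 := finrank_ker_dual Z (QuadraticMap.polarBilin Q d)
    have h2 := finrank_ker_dual (Z ⊓ LinearMap.ker (QuadraticMap.polarBilin Q d))
      (QuadraticMap.polarBilin Q x)
    omega)
  by_cases hqy : Q y = 0
  · exact ⟨y, x, hy0, hqy, hx, (pb_comm y x).trans hy.2, hy.1.1.1.2, hy.1.1.2, h1, h3⟩
  · exact ⟨d, y, hd0, hq, hqy, hy.1.2, hd.1.2, hd.2, hy.1.1.1.2, hy.1.1.2⟩

namespace Over

variable {T : TS F U W V} {ω : LinearMap.BilinForm F U} {Q : QuadraticForm F W}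
  {B : LinearMap.BilinForm F V} {M : Subgroup (V ≃ₗ[F] V)} (S : Over T ω Q B M)

local notation "β" => QuadraticMap.polarBilin Q

include S

theorem col (hk : 5 ≤ finrank F W) {d d' : W} (hd0 : d ≠ 0) (hd : Q d = 0) (hd' : Q d' = 0)
    {y : V ≃ₗ[F] V} (hy : y ∈ M) (h : ∀ u, y (T.τ u d) ∈ T.col d') : y ∈ T.TG := by
  have := S.nontrivialU
  have two := S.two
  have hE : EG (PQ.ofAlt B S.alt) = Isom B := by rw [EG_alt S.nd, isom_eq]
  have C : Ctx T (PQ.ofAlt ω S.ωalt) (PQ.ofQuad Q) (PQ.ofAlt B S.alt) M :=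
    { tf :=
        { ndU := S.ωnd
          ndW := S.Qnd
          nd := S.nd
          B_τ := S.Bτ
          ε_eq := by simp [PQ.ofAlt, PQ.ofQuad]
          isom := fun g _ hB => PQ.mem_isom_ofAlt.2 hB
          sing := fun _ _ _ => trivial
          maxU := fun _ _ => trivial
          maxW := fun w hw => AddSubgroup.mem_bot.2
            (mul_left_cancel₀ two ((pb_self w).symm.trans (hw.trans (mul_zero _).symm)))
          hΛ := fun l _ => ⟨2⁻¹ * l, by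
            simp only [PQ.ofAlt, RingHom.id_apply]; field_simp; norm_num⟩ }
      hM := hE ▸ S.hH
      hI := hE ▸ S.hM
      isoK := ⟨3, isoK_quad Q, hk⟩
      three := S.dimW
      extr := extr_of_five S.Qnd hk
      nontriv := exists_ne 0 }
  have hG : Good (T.grpU M) := good_of_lambda C.EG_le_grpU S.ωnd (fun _ _ => trivial)
    (by obtain ⟨u, hu⟩ := C.nontriv; exact ⟨u, hu, trivial⟩) (l := 1) trivial one_ne_zero
    (Or.inr ⟨-1, trivial, by simp, fun h => two (by linear_combination -h)⟩)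
    (Or.inr fun _ => trivial)
  exact C.mem_TG_of_col (fun s hs => C.algF_scalar hG (hE ▸ S.hne) (C.levF_le_algF hk hs)) hd0 hd
    hd' hy h

/-- `g = 1 ⊗ e`, `e` an Eichler transformation with non-singular vector part. -/
def IsE (_ : Over T ω Q B M) (d x : W) (g : V ≃ₗ[F] V) : Prop :=
  g ∈ M ∧ ∀ m, g m = m + T.τ (T.cW (β x) m - Q x • T.cW (β d) m) d - T.τ (T.cW (β d) m) x

theorem exists_isE {d x : W} (hd : Q d = 0) (hdx : β d x = 0) : ∃ g, S.IsE d x g := by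
  obtain ⟨γ, hγ, e⟩ := has_eu_isom (P := PQ.ofQuad Q) (d := d) (w := x) (c := Q x) hd hdx
    (sub_self (Q x))
  refine ⟨_, S.memW hγ, fun m => T.ind (p := fun m => T.opE 1 γ m =
    m + T.τ (T.cW (β x) m - Q x • T.cW (β d) m) d - T.τ (T.cW (β d) m) x) m (by simp)
    (fun u w => ?_) fun a b e1 e2 => ?_⟩
  · rw [TS.opE_τ, e, eu_apply]
    change T.τ u (w + (β x w - 1 * Q x * β d w) • d - (1 * β d w) • x) = _
    simp only [map_add, map_sub, map_smul, TS.cW_τ, LinearMap.sub_apply, LinearMap.smul_apply]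
    module
  · simp only [map_add, map_sub, map_smul, e1, e2, LinearMap.sub_apply, LinearMap.smul_apply,
      LinearMap.add_apply, smul_add]
    abel

theorem kE (hn : finrank F U = 2) (hk : 5 ≤ finrank F W) {d x : W} (hd0 : d ≠ 0) (hd : Q d = 0)
    (hx : Q x ≠ 0) (hdx : β d x = 0) {g y : V ≃ₗ[F] V} (hg : S.IsE d x g) (hy : y ∈ M)
    (h : y⁻¹ * g * y ∈ T.TG) : y ∈ T.TG := by
  have := S.nontrivialU
  obtain ⟨hg, eg⟩ := hg
  obtain ⟨α, γ, e⟩ := h
  have hdd : β d d = 0 := by rw [pb_self, hd, mul_zero]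
  have hx0 : x ≠ 0 := by rintro rfl; simp at hx
  obtain ⟨c, hc⟩ := TS.scalar_of_rank e
    (N := ((y⁻¹ * g * y : V ≃ₗ[F] V) : V →ₗ[F] V) - 1) (fun x => by simp) (by
      have h1 : LinearMap.range (((y⁻¹ * g * y : V ≃ₗ[F] V) : V →ₗ[F] V) - 1) ≤
          (T.col d ⊔ T.col x).map ((y⁻¹ : V ≃ₗ[F] V) : V →ₗ[F] V) := by
        rintro _ ⟨m, rfl⟩
        refine ⟨g (y m) - y m, ?_, by
          rw [map_sub, LinearEquiv.coe_coe, le_inv_apply_apply]; rfl⟩
        rw [eg, add_sub_assoc, add_sub_cancel_left]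
        exact Submodule.sub_mem _ (Submodule.mem_sup_left (T.τ_mem_col _ _))
          (Submodule.mem_sup_right (T.τ_mem_col _ _))
      have h2 := Submodule.finrank_mono h1
      have h3 := Submodule.finrank_add_le_finrank_add_finrank (T.col d) (T.col x)
      rw [LinearEquiv.finrank_map_eq] at h2
      rw [T.finrank_col hd0, T.finrank_col hx0] at h3
      omega)
  obtain ⟨γ', e'⟩ := TS.of_scalar e hc (exists_ne 0)
  have h1 : ∀ m, g (g m - m) - (g m - m) = T.τ ((-(2 * Q x)) • T.cW (β d) m) d := fun m => by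
    rw [eg m, add_sub_assoc, add_sub_cancel_left, eg]
    simp only [map_sub, map_smul, TS.cW_τ, hdd, hdx, pb_comm x d, pb_self, LinearMap.sub_apply,
      LinearMap.smul_apply, map_zero, zero_smul, LinearMap.zero_apply]
    module
  have h2 : ∀ m, g (y m) = y ((y⁻¹ * g * y) m) := fun m => by
    rw [le_mul_apply, le_mul_apply, le_apply_inv]
  have h3 : ∀ u w, y (T.τ u (γ' (γ' w - w) - (γ' w - w))) =
      T.τ ((-(2 * Q x)) • T.cW (β d) (y (T.τ u w))) d := fun u w => by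
    rw [← h1, h2, ← map_sub y, h2, e', ← map_sub (T.τ u), e', ← map_sub y, ← map_sub (T.τ u)]
  obtain ⟨u, hu⟩ := exists_ne (0 : U)
  obtain ⟨v, hv⟩ := S.exists_ω hu
  obtain ⟨w, hw⟩ : ∃ w, γ' (γ' w - w) - (γ' w - w) ≠ 0 := by
    by_contra hc
    push Not at hc
    have h4 : ∀ m, T.τ ((-(2 * Q x)) • T.cW (β d) (y m)) d = 0 := fun m =>
      T.ind (p := fun m => T.τ ((-(2 * Q x)) • T.cW (β d) (y m)) d = 0) m (by simp)
        (fun u w => by rw [← h3, hc]; simp) fun a b e1 e2 => by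
          simp only [map_add, smul_add, LinearMap.add_apply, e1, e2, add_zero]
    obtain ⟨a, ha⟩ := S.exists_β hd0
    have h5 := h4 (y⁻¹ (T.τ u a))
    simp [ha, T.τ_eq_zero, S.two, hx, hu, hd0] at h5
  refine S.col hk hw ?_ hd hy fun a => h3 a w ▸ T.τ_mem_col _ _
  have h4 := S.hM hy (T.τ u (γ' (γ' w - w) - (γ' w - w))) (T.τ v (γ' (γ' w - w) - (γ' w - w)))
  rw [h3, h3, S.Bτ, S.Bτ, hdd, hv, pb_self] at h4
  simpa [S.two] using h4

theorem two_basis (hn : finrank F U = 2) {u v : U} (hv : ω u v = 1) (a : U) :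
    a = -ω v a • u + ω u a • v := by
  by_contra hc
  rw [← sub_eq_zero] at hc
  set b := a - (-ω v a • u + ω u a • v) with hb
  have h1 : ω u b = 0 := by simp [hb, hv, S.ωalt]
  have h2 : ω v b = 0 := by simp [hb, hv, S.ωalt, S.ωcomm v u]
  obtain ⟨e, he⟩ := S.exists_ω hc
  have h3 : LinearIndependent F ![u, v, b] := by
    rw [Fintype.linearIndependent_iff]
    intro c hc'
    have h4 := congrArg (ω u) hc'
    have h5 := congrArg (ω v) hc'
    simp [Fin.sum_univ_three, hv, S.ωalt, S.ωcomm v u, h1, h2] at h4 h5 hc'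
    intro i
    fin_cases i
    · exact h5
    · exact h4
    · simpa [h4, h5, show b ≠ 0 from hc] using hc'
  have := h3.fintype_card_le_finrank
  simp [hn] at this

theorem two_tensor (hn : finrank F U = 2) {u v : U} (hv : ω u v = 1) (m : V) :
    m = T.τ u (-T.cU (ω v) m) + T.τ v (T.cU (ω u) m) :=
  T.ind (p := fun m => m = T.τ u (-T.cU (ω v) m) + T.τ v (T.cU (ω u) m)) m (by simp)
    (fun a w => by
      conv_lhs => rw [S.two_basis hn hv a]
      simp) fun a b e1 e2 => by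
      conv_lhs => rw [e1, e2]
      simp only [map_add, map_neg]
      abel

theorem p1a (hn : finrank F U = 2) (hk : 5 ≤ finrank F W) {d d' : W} (hd0 : d ≠ 0) (hd : Q d = 0)
    (hd0' : d' ≠ 0) (hd' : Q d' = 0) {u₀ u : U} (hu₀ : u₀ ≠ 0) {y : V ≃ₗ[F] V} (hy : y ∈ M)
    (h : y (T.τ u₀ d) = T.τ u d') (hp : ∀ a, T.cW (β d') (y (T.τ a d)) = 0) : y ∈ T.TG := by
  have hu : u ≠ 0 := by
    rintro rfl
    simp [T.τ_eq_zero, hu₀, hd0] at h
  obtain ⟨v, hv⟩ := S.exists_ω hu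
  obtain ⟨v₀, hv₀⟩ := S.exists_ω hu₀
  obtain ⟨x, hx, hdx, hbx⟩ := exists_nonsing_two S.Qnd hk (β d') (β (T.cU (ω u) (y (T.τ v₀ d))))
  obtain ⟨g, hg⟩ := S.exists_isE hd' hdx
  refine S.kE hn hk hd0' hd' hx hdx hg hy (S.col hk hd0 hd hd
    (M.mul_mem (M.mul_mem (M.inv_mem hy) hg.1) hy) fun a => ?_)
  have h1 : ω u (T.cW (β x) (y (T.τ a d))) = 0 := by
    rw [S.two_basis hn hv₀ a]
    simp only [map_add, map_smul, LinearMap.add_apply, LinearMap.smul_apply, h, TS.cW_τ, S.ωalt,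
      T.cW_cU, pb_comm x, hbx, smul_zero, add_zero]
  rw [le_mul_apply, le_mul_apply, hg.2, hp, S.two_basis hn hv (T.cW (β x) _), h1]
  simp only [map_add, map_smul, zero_smul, smul_zero, add_zero, sub_zero, map_zero,
    LinearMap.zero_apply, LinearMap.smul_apply, ← h, le_inv_apply_apply]
  exact Submodule.add_mem _ (T.τ_mem_col _ _) (Submodule.smul_mem _ _ (T.τ_mem_col _ _))

theorem p1b (hn : finrank F U = 2) (hk : 5 ≤ finrank F W) {d d' : W} (hd0 : d ≠ 0) (hd : Q d = 0)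
    (hd0' : d' ≠ 0) (hd' : Q d' = 0) {u₀ u : U} (hu₀ : u₀ ≠ 0) {y : V ≃ₗ[F] V} (hy : y ∈ M)
    (h : y (T.τ u₀ d) = T.τ u d') : y ∈ T.TG := by
  have hu : u ≠ 0 := by
    rintro rfl
    simp [T.τ_eq_zero, hu₀, hd0] at h
  have hdd : β d d = 0 := by rw [pb_self, hd, mul_zero]
  have hdd' : β d' d' = 0 := by rw [pb_self, hd', mul_zero]
  obtain ⟨v, hv⟩ := S.exists_ω hu
  obtain ⟨v₀, hv₀⟩ := S.exists_ω hu₀
  obtain ⟨n, hn'⟩ := y.surjective (T.τ v d')
  obtain ⟨x, hx, hdx, hbx⟩ := exists_nonsing_two S.Qnd hk (β d) (β (T.cU (ω u₀) n))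
  obtain ⟨g, hg⟩ := S.exists_isE hd hdx
  have hz : y⁻¹⁻¹ * g * y⁻¹ ∈ M := M.mul_mem (M.mul_mem (by simpa using hy) hg.1) (M.inv_mem hy)
  have ez : ∀ m, (y⁻¹⁻¹ * g * y⁻¹) (y m) = y (g m) := fun m => by
    rw [inv_inv, le_mul_apply, le_mul_apply, le_inv_apply_apply]
  have h1 : (y⁻¹⁻¹ * g * y⁻¹) (T.τ u d') = T.τ u d' := by
    rw [← h, ez, hg.2]
    simp [hdd, pb_comm x d, hdx]
  refine T.TG.inv_mem_iff.1 (S.kE hn hk hd0 hd hx hdx hg (M.inv_mem hy)
    (S.p1a hn hk hd0' hd' hd0' hd' hu hz h1 fun a => ?_))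
  have h2 : ω u (T.cW (β d') ((y⁻¹⁻¹ * g * y⁻¹) (T.τ v d'))) = 0 := by
    rw [← S.B_cW, ← h1, S.hM hz, S.Bτ, hdd', mul_zero]
  have h3 : ω v (T.cW (β d') ((y⁻¹⁻¹ * g * y⁻¹) (T.τ v d'))) = 0 := by
    have h4 : ω u₀ (T.cW (β d) n) = 0 := by rw [← S.B_cW, ← S.hM hy, h, hn', S.Bτ, hdd', mul_zero]
    have h5 : ω u₀ (T.cW (β x) n) = 0 := by rw [T.cW_cU, pb_comm, hbx]
    rw [← S.B_cW, ← hn', ez, S.hM hy, hg.2, map_sub, map_add, S.alt, S.Bcomm n, S.Bcomm n, S.B_cW,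
      S.B_cW, S.two_basis hn hv₀ (T.cW (β d) n), S.two_basis hn hv₀ (T.cW (β x) n), h4, h5]
    simp [S.ωalt]
  rw [S.two_basis hn hv a, map_add, LinearMap.add_apply, map_smul, map_smul, LinearMap.smul_apply,
    LinearMap.smul_apply, map_add, map_smul, map_smul, h1, map_add, map_smul, map_smul,
    S.two_basis hn hv (T.cW (β d') ((y⁻¹⁻¹ * g * y⁻¹) (T.τ v d'))), h2, h3]
  simp [hdd']

theorem le_TG_two (hn : finrank F U = 2) (hk : 5 ≤ finrank F W) : M ≤ T.TG := fun y hy => by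
  have := S.nontrivialU
  obtain ⟨u, hu⟩ := exists_ne (0 : U)
  obtain ⟨v, hv⟩ := S.exists_ω hu
  obtain ⟨d, -, hd0, hd⟩ := isoK_quad Q ⊤ (by simpa using S.dimW)
  obtain ⟨d', x, hd0', hd', hx, hdx, h1, h2, h3, h4⟩ := exists_sing_nonsing S.Qnd hk
    (β (T.cU (ω v) (y (T.τ u d)))) (β (T.cU (ω u) (y (T.τ u d))))
  obtain ⟨g, hg⟩ := S.exists_isE hd' hdx
  refine S.kE hn hk hd0' hd' hx hdx hg hy (S.p1b hn hk hd0 hd hd0 hd hu (u := u)
    (M.mul_mem (M.mul_mem (M.inv_mem hy) hg.1) hy) ?_)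
  have h5 : ∀ w, β (T.cU (ω v) (y (T.τ u d))) w = 0 → β (T.cU (ω u) (y (T.τ u d))) w = 0 →
      T.cW (β w) (y (T.τ u d)) = 0 := fun w a1 a2 => by
    rw [S.two_basis hn hv (T.cW _ _), T.cW_cU, T.cW_cU, pb_comm w, pb_comm w, a1, a2]
    simp
  rw [le_mul_apply, le_mul_apply, hg.2, h5 _ h1 h2, h5 _ h3 h4]
  simp [le_inv_apply_apply]

end Over

theorem SO.isMaximalIn {T : TS F U W V} {ω : LinearMap.BilinForm F U} {Q : QuadraticForm F W}
    {B : LinearMap.BilinForm F V} (S : SO T ω Q B)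
    (hex : 4 ≤ finrank F W ∨ ∃ t : F, t ≠ 0 ∧ t * t ≠ 1)
    (h4 : ¬ (finrank F U = 2 ∧ finrank F W = 4)) :
    Geo.IsMaximalIn (Isom B) (T.TG ⊓ Isom B) := by
  refine isMaximalIn_of inf_le_right (fun h => S.not_isom_le (h.trans inf_le_left))
    fun M h1 h2 ⟨g, hg, hg'⟩ => ?_
  by_contra hc
  have S' : Over T ω Q B M := { S with hH := h1, hM := h2, hne := hc, hex := hex }
  refine hg' ⟨?_, h2 hg⟩
  by_cases hd : 3 ≤ finrank F U ∨ finrank F W = 3
  · exact S'.le_TG_one hd hg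
  · have := S'.two_le
    have := S.dimW
    exact S'.le_TG_two (by omega) (by omega) hg

end Abstract

open scoped Matrix MatrixGroups

/-- `Sp ⊗ O` is maximal in `Sp`. -/
theorem tensor_SpO {F : Type*} [Field F] [Fintype F] {m : ℕ} (hm : 1 ≤ m)
    (hodd : Odd (Fintype.card F)) {n₁ n₂ : ℕ} (hn₂ : 3 ≤ n₂) (hex : ¬ (Fintype.card F = 3 ∧ n₂ = 3))
    (h4 : ¬ (n₁ = 2 ∧ n₂ = 4)) {e : (Fin m ⊕ Fin m) ≃ Fin n₁ × Fin n₂} {P : GL (Fin m ⊕ Fin m) F}
    {f₁ : (Fin n₁ → F) → (Fin n₁ → F) → F} {f₂ : (Fin n₂ → F) → (Fin n₂ → F) → F}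
    (hf₁ : Geo.IsSymplecticForm f₁) (hf₂ : Geo.IsSymmetricForm f₂)
    (hT : Geo.IsTensorFormStructure id (sympForm m F) f₁ f₂ e P) :
    Geo.IsMaximalIn (spGL m F) (Geo.tensorProductSubgroup n₁ n₂ e P ⊓ spGL m F) := by
  have h2 := two_ne_zero_of_odd hodd
  obtain ⟨c, hc, h⟩ := tensor_pure_bil hT hf₁.bilinear hf₂.bilinear
  let Q : QuadraticForm F (Fin n₂ → F) :=
    LinearMap.BilinMap.toQuadraticMap ((2 : F)⁻¹ • bilOf hf₂.bilinear)
  have hQ : ∀ x y, QuadraticMap.polarBilin Q x y = f₂ x y := fun x y => by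
    simp only [Q, QuadraticMap.polarBilin_apply_apply, LinearMap.BilinMap.polar_toQuadraticMap,
      LinearMap.smul_apply, bilOf_apply, hf₂.symm y x, smul_eq_mul]
    field_simp
    ring
  have S : SO (tsOf e P) (c • bilOf hf₁.bilinear) Q (H11.Sp.bilin m F) :=
    { two := h2
      ωalt := fun x => by simp [bilOf_apply, hf₁.alternating]
      ωnd := sep_smul (sep_of_nondeg hf₁.nondegenerate) hc
      Qnd := sep_of_nondeg (by simpa only [hQ] using hf₂.nondegenerate)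
      alt := H11.Sp.form_self
      nd := spP_nd m
      Bτ := fun u w u' w' => by rw [hQ]; exact h u w u' w'
      dimU := by
        have := card_of_equiv e
        simp only [Fintype.card_sum, Fintype.card_fin] at this
        rcases n₁ with _ | n₁
        · omega
        · simp
      dimW := by simpa using hn₂ }
  rw [spGL_eq', tensorProductSubgroup_eq, ← pull_inf,
    show (spP m F).Isom = Isom (H11.Sp.bilin m F) from isom_eq S.alt]
  refine isMaximalIn_pull (S.isMaximalIn ?_ (by simpa using h4))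
  by_cases h3 : n₂ = 3
  · right
    by_contra hc
    push Not at hc
    classical
    have h1 : (Finset.univ : Finset F) ⊆ {0, 1, -1} := fun x _ => by
      by_cases hx : x = 0
      · simp [hx]
      · simpa [hx] using mul_self_eq_one_iff.1 (hc x hx)
    have h5 := (Finset.card_le_card h1).trans Finset.card_le_three
    rw [Finset.card_univ] at h5
    have h6 := Fintype.one_lt_card (α := F)
    obtain ⟨k, hk⟩ := hodd
    exact hex ⟨by omega, h3⟩
  · left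
    simp
    omega

end H28.Low
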