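import Mathlib
import Cfsg.Agent.Base
import Cfsg.Agent.Lib.LowRows.SpO6
import Cfsg.Agent.Lib.Tensor.OO6

/-!
Symplectic tensor orthogonal: the case `Sp₂ ⊗ O₄⁻`, recognition lemmas.
-/

set_option autoImplicit false
set_option linter.unusedSectionVars false

namespace H28.Low

open Module Cfsg H28 H97 H11.Ten

variable {F U W V : Type*} [Field F] [AddCommGroup U] [Module F U] [AddCommGroup W]
  [Module F W] [AddCommGroup V] [Module F V] [FiniteDimensional F U] [FiniteDimensional F W]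
  [FiniteDimensional F V] [Finite F]

namespace Over

variable {T : TS F U W V} {ω : LinearMap.BilinForm F U} {Q : QuadraticForm F W}
  {B : LinearMap.BilinForm F V} {M : Subgroup (V ≃ₗ[F] V)} (S : Over T ω Q B M)

local notation "β" => QuadraticMap.polarBilin Q

include S

theorem tf : TF T (PQ.ofAlt ω S.ωalt) (PQ.ofQuad Q) (PQ.ofAlt B S.alt) where
  ndU := S.ωnd
  ndW := S.Qnd
  nd := S.nd
  B_τ := S.Bτ
  ε_eq := by simp [PQ.ofAlt, PQ.ofQuad]
  isom := fun g _ hB => PQ.mem_isom_ofAlt.2 hB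
  sing := fun _ _ _ => trivial
  maxU := fun _ _ => trivial
  maxW := fun w hw => AddSubgroup.mem_bot.2
    (mul_left_cancel₀ S.two ((pb_self w).symm.trans (hw.trans (mul_zero _).symm)))
  hΛ := fun l _ => ⟨2⁻¹ * l, by
    have := S.two
    simp only [PQ.ofAlt, RingHom.id_apply]; field_simp; norm_num⟩

theorem orth : IsOrth (PQ.ofQuad Q) := H21.TO.ofQuad_orth S.two S.Qnd

theorem eq_one_of_sq (hI : H21.TO.Idx1 (PQ.ofQuad Q)) {γ : Module.End F W}
    (h : ∀ x y, β (γ x) (γ y) = β x y) (h2 : ∀ w, γ (γ w - w) = γ w - w) : γ = 1 :=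
  sub_eq_zero.1 (hI.eq_zero S.orth (b := γ - 1) (fun a w => by
    have h4 := h a (γ w - w)
    have h5 := h a w
    rw [h2] at h4
    change β (γ a - a) w = -β a (γ w - w)
    simp only [map_sub, LinearMap.sub_apply] at h4 ⊢
    linear_combination h5 - h4) fun y => sub_eq_zero.2 (h2 y))

theorem r1' (hI : H21.TO.Idx1 (PQ.ofQuad Q)) {u : U} (hu : u ≠ 0) {c : F} (hc : c ≠ 0)
    {y : V ≃ₗ[F] V} (hy : y ∈ M) (h : y * S.tU u c * y⁻¹ ∈ T.TG) : y ∈ T.TG := by
  have := S.nontrivialU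
  have := S.nontrivialW
  obtain ⟨g, hg⟩ : ∃ g, g = y * S.tU u c * y⁻¹ := ⟨_, rfl⟩
  rw [← hg] at h
  have hgM : g ∈ M := hg ▸ M.mul_mem (M.mul_mem hy (S.tU_memM u c)) (M.inv_mem hy)
  have hg1 : g ≠ 1 := fun h1 => S.tU_ne_one hu hc (by rwa [hg, conj_eq_one_iff] at h1)
  have e : ∀ x, g (y x) - y x = y (T.τ u (c • T.cU (ω u) x)) := fun x => by
    rw [hg, le_mul_apply, le_mul_apply, le_inv_apply_apply, S.tU_apply]
    simp
  have hsq : ∀ x, g (g x - x) = g x - x := fun x => by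
    obtain ⟨x, rfl⟩ := y.surjective x
    rw [e, ← sub_eq_zero, e]
    simp [S.ωalt]
  rcases sqz T S.two h hsq with ⟨α, e'⟩ | ⟨γ, e'⟩
  · obtain ⟨v, hv⟩ := exists_move hg1 e'
    refine (T.TG.inv_mem_iff).1 (S.row hv hu (M.inv_mem hy) fun w => ?_)
    obtain ⟨x, hx⟩ := y.surjective (T.τ v w)
    exact ⟨_, by rw [map_sub, LinearMap.sub_apply, ← e', ← hx, e, le_inv_apply_apply]⟩
  have h1 := S.eq_one_of_sq hI (γ := γ) (S.isom_right (S.hM hgM) e') fun w => τ_left_inj T hu (by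
    have := hsq (T.τ u w)
    rwa [e', ← map_sub, e'] at this)
  exact (hg1 (eq_of_τ T fun a b => (e' a b).trans (congrArg _ (LinearMap.congr_fun h1 b)))).elim

theorem eq_one {d : W} (h0 : d ≠ 0) (hd : Q d = 0) {k : V ≃ₗ[F] V} (hk : k ∈ M)
    (h1 : ∀ x, T.cW (β d) x = 0 → k x = x) : k = 1 := by
  have hdd : β d d = 0 := by rw [pb_self, hd, mul_zero]
  obtain ⟨f, hf⟩ := S.exists_β h0
  let Z : AddSubgroup (Module.End F U) :=
    { carrier := {t | Has M fun x => x + T.τ (t (T.cW (β d) x)) d}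
      zero_mem' := has_id.congr fun x => by simp
      add_mem' := fun a b => (a.comp b).congr fun x => by simp [hdd]; abel
      neg_mem' := fun a => a.inv fun x => by simp [hdd] }
  let t : Module.End F U := T.cW (β f) ∘ₗ ((k : V →ₗ[F] V) - LinearMap.id) ∘ₗ T.τ.flip f
  have e : ∀ x, k x = x + T.τ (t (T.cW (β d) x)) d := fun x => by
    obtain ⟨a, ha⟩ := S.memN (m := k (T.τ (T.cW (β d) x) f) - T.τ (T.cW (β d) x) f) (d := d)
      fun y hy u => by
        have := S.hM hk (T.τ u y) (T.τ (T.cW (β d) x) f)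
        rw [h1 _ (by simp [pb_comm d y, hy])] at this
        rw [map_sub, this, sub_self]
    have e1 : t (T.cW (β d) x) = a := by
      change T.cW (β f) (k (T.τ _ f) - T.τ _ f) = a
      rw [ha, TS.cW_τ, pb_comm, hf, one_smul]
    have e2 := h1 (x - T.τ (T.cW (β d) x) f) (by rw [map_sub, TS.cW_τ, hf, one_smul, sub_self])
    rw [e1, ← ha]
    rw [map_sub] at e2
    linear_combination (norm := module) e2
  have ht : t ∈ Z := ⟨k, hk, e⟩
  have a1 : ∀ (u : U) (c : F), ∃ s ∈ Z, ∀ a, s a = t a - (c * ω u a) • t u + (c * ω u (t a) -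
      c * c * ω u a * ω u (t u)) • u := fun u c => by
    refine ⟨t - c • (ω u).smulRight (t u) + c • (ω u ∘ₗ t).smulRight u -
      (c * c * ω u (t u)) • (ω u).smulRight u, (Has.conj ht (S.tU_memM u c)).congr fun x => ?_,
      fun a => by simp; module⟩
    have b1 : (S.tU u c)⁻¹ x = S.tU u (-c) x := by
      rw [le_inv_apply, LinearEquiv.symm_apply_eq, S.tU_apply, S.tU_apply]
      simp [S.ωalt]
    have b2 : T.cW (β d) (S.tU u (-c) x) = T.cW (β d) x - (c * ω u (T.cW (β d) x)) • u := by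
      rw [S.tU_apply, T.cW_cU]
      simp only [map_add, map_smul, TS.cW_τ]
      module
    rw [map_add, le_apply_inv, b1, b2, S.tU_τ]
    congr 3
    simp
    module
  have a2 : ∀ u, ω u (t u) = 0 := fun u => by
    by_contra hc
    obtain ⟨s, hs, es⟩ := a1 u 1
    obtain ⟨s', hs', es'⟩ := a1 u (-1)
    refine S.hne (S.isom_le_of_hasT S.hH S.hM (u := u) (by rintro rfl; simp at hc) h0 hd
      (c := -(2 * ω u (t u))) (by simp [S.two, hc])
      (Has.congr (Z.sub_mem (Z.sub_mem (Z.add_mem hs hs') ht) ht) fun x => ?_))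
    simp only [LinearMap.sub_apply, LinearMap.add_apply, es, es', LinearMap.smul_apply, S.B_cW,
      map_add, map_sub, map_smul, smul_eq_mul]
    module
  have a3 : ∀ a, t a = 0 := fun a => S.ω_ext fun b => by
    have b1 := S.hM hk (T.τ a f) (T.τ b f)
    have b2 := a2 (a + b)
    simp only [e, TS.cW_τ, hf, one_smul, map_add, LinearMap.add_apply, S.Bτ, hdd, pb_comm f d,
      S.ωcomm (t a) b, a2] at b1 b2
    rw [map_zero]
    exact mul_left_cancel₀ S.two (by linear_combination b2 - b1)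
  exact LinearEquiv.ext fun x => by simp [e, a3]

variable (T Q) in
/-- Acts trivially on the column of `d` and on its perp modulo the column. -/
def _root_.H28.Low.Lev (d : W) (k : V ≃ₗ[F] V) : Prop :=
  (∀ u, k (T.τ u d) = T.τ u d) ∧ ∀ x, T.cW (β d) x = 0 → ∃ a, k x = x + T.τ a d

theorem lev_comm {d : W} (h0 : d ≠ 0) (hd : Q d = 0) {k k' : V ≃ₗ[F] V} (hk : k ∈ M)
    (hk' : k' ∈ M) (h1 : Lev T Q d k) (h2 : Lev T Q d k') : k * k' = k' * k := by
  refine (inv_mul_eq_one.1 (S.eq_one h0 hd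
    (M.mul_mem (M.inv_mem (M.mul_mem hk' hk)) (M.mul_mem hk hk')) fun x hx => ?_)).symm
  obtain ⟨a, e1⟩ := h1.2 x hx
  obtain ⟨b, e2⟩ := h2.2 x hx
  have : (k * k') x = (k' * k) x := by
    simp only [le_mul_apply, e1, e2, map_add, h1.1, h2.1]; abel
  rw [le_mul_apply, this, le_inv_apply_apply]

variable {S} in
theorem IsE.lev {d x : W} (hd : Q d = 0) (hdx : β d x = 0) {g : V ≃ₗ[F] V} (hg : S.IsE d x g) :
    Lev T Q d g :=
  ⟨fun u => by simp [hg.2, hd, pb_comm x d, hdx], fun m hm => ⟨_, by rw [hg.2, hm]; simp; rfl⟩⟩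

variable {S} in
theorem IsE.ten {d x : W} (hd : Q d = 0) (hdx : β d x = 0) {g : V ≃ₗ[F] V} (hg : S.IsE d x g) :
    ∃ γ : W ≃ₗ[F] W, ∀ u w, g (T.τ u w) = T.τ u (γ w) := by
  obtain ⟨γ, -, e⟩ := has_eu_isom (P := PQ.ofQuad Q) (d := d) (w := x) (c := Q x) hd hdx
    (sub_self (Q x))
  refine ⟨γ, fun u w => ?_⟩
  rw [e, eu_apply, hg.2]
  change _ = T.τ u (w + (β x w - 1 * Q x * β d w) • d - (1 * β d w) • x)
  simp only [map_add, map_sub, map_smul, TS.cW_τ, LinearMap.sub_apply, LinearMap.smul_apply]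
  module

theorem cW_fix {d : W} {k : V ≃ₗ[F] V} (hk : k ∈ M) (h1 : ∀ u, k (T.τ u d) = T.τ u d) (x : V) :
    T.cW (β d) (k x) = T.cW (β d) x := S.ω_ext fun u => by
  rw [← S.B_cW, ← S.B_cW, ← S.hM hk (T.τ u d) x, h1]

theorem of_lev (hn : finrank F U = 2) {d : W} (h0 : d ≠ 0) (hd : Q d = 0) {k : V ≃ₗ[F] V}
    (hk : k ∈ M) (h1 : Lev T Q d k) : ∃ v, β d v = 0 ∧ S.IsE d v k := by
  have := S.nontrivialU
  have hdd : β d d = 0 := by rw [pb_self, hd, mul_zero]
  obtain ⟨f, hf⟩ := S.exists_β h0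
  have hfd := (pb_comm f d).trans hf
  let s : W → Module.End F U := fun v =>
    T.cW (β f) ∘ₗ ((k : V →ₗ[F] V) - LinearMap.id) ∘ₗ T.τ.flip v
  have e1 : ∀ v, β d v = 0 → ∀ u, k (T.τ u v) = T.τ u v + T.τ (s v u) d := fun v hv u => by
    obtain ⟨a, ha⟩ := h1.2 (T.τ u v) (by rw [TS.cW_τ, hv, zero_smul])
    have : s v u = a := by
      change T.cW (β f) (k (T.τ u v) - T.τ u v) = a
      rw [ha, add_sub_cancel_left, TS.cW_τ, hfd, one_smul]
    rw [this, ha]
  obtain ⟨u, hu⟩ := exists_ne (0 : U)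
  obtain ⟨u', hu'⟩ := S.exists_ω hu
  have e4 : ∀ v, β d v = 0 → ∀ a, s v a = ω u (s v u') • a := fun v hv => by
    obtain ⟨g, hg⟩ := S.exists_isE hd hv
    have a1 : ∀ x y, ω x (s v y) = ω (s v x) y := fun x y => by
      have a2 := LinearEquiv.congr_fun (S.lev_comm h0 hd hk hg.1 h1 (hg.lev hd hv)) (T.τ y f)
      rw [le_mul_apply, le_mul_apply, hg.2, hg.2, S.cW_fix hk h1.1] at a2
      have a3 := congrArg (B (T.τ x f)) a2
      have a4 := S.hM hk (T.τ x v) (T.τ y f)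
      have a5 := S.hM hk (T.τ (s v x) d) (T.τ y f)
      rw [h1.1] at a5
      rw [e1 v hv, map_add, LinearMap.add_apply, a5, S.B_cW] at a4
      simp only [TS.cW_τ, hf, one_smul, map_add, map_sub, h1.1, e1 v hv, S.Bτ, hfd, map_smul,
        smul_eq_mul, mul_one, LinearMap.sub_apply, LinearMap.smul_apply] at a3 a4
      linear_combination -a3 - a4
    have a2 : ∀ x, ω x (s v x) = 0 := fun x =>
      mul_left_cancel₀ S.two (by linear_combination a1 x x + S.ωcomm (s v x) x)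
    intro a
    have a3 := a1 u u'
    rw [S.two_basis hn hu' a, map_add, map_smul, map_smul, S.two_basis hn hu' (s v u),
      S.two_basis hn hu' (s v u'), a2, a2, S.ωcomm u' (s v u), ← a3]
    simp [hu', S.ωalt]
    module
  obtain ⟨v, hv⟩ := exists_repr_dual (σ := RingHom.id F) (fun _ => rfl) (β) S.Qnd
    (ω u ∘ₗ T.cW (β f) ∘ₗ ((k : V →ₗ[F] V) - LinearMap.id) ∘ₗ T.τ u')
  replace hv : ∀ y, β v y = ω u (s y u') := hv
  have hdv : β d v = 0 := by
    rw [pb_comm, hv]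
    change ω u (T.cW (β f) (k (T.τ u' d) - T.τ u' d)) = 0
    simp [h1.1]
  obtain ⟨z, hz⟩ := S.exists_isE hd hdv
  refine ⟨v, hdv, (show z = k from inv_mul_eq_one.1 (S.eq_one h0 hd (M.mul_mem (M.inv_mem hz.1) hk)
    fun x hx => ?_)) ▸ hz⟩
  rw [le_mul_apply, le_inv_apply, LinearEquiv.symm_apply_eq]
  refine sub_eq_zero.1 (T.eq_zero_of_ker (f := (k : V →ₗ[F] V) - (z : V →ₗ[F] V)) (φ := β d)
    (fun a y hy => ?_) hx)
  rw [LinearMap.sub_apply, LinearEquiv.coe_coe, LinearEquiv.coe_coe, e1 y hy, hz.2, e4 y hy,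
    TS.cW_τ, TS.cW_τ, hy, hv]
  simp

theorem stab' (hn : finrank F U = 2) (hI : H21.TO.Idx1 (PQ.ofQuad Q)) {d : W} (h0 : d ≠ 0)
    (hd : Q d = 0) {g : V ≃ₗ[F] V} (hg : g ∈ M) (h1 : ∀ u, g (T.τ u d) ∈ T.col d) : g ∈ T.TG := by
  have := S.nontrivialU
  obtain ⟨α, hα⟩ := T.exists_alpha h0 h1
  have a1 : ∀ u, g⁻¹ (T.τ u d) = T.τ (α⁻¹ u) d := fun u => by
    rw [le_inv_apply, LinearEquiv.symm_apply_eq, hα, le_apply_inv]
  have a2 : ∀ x, T.cW (β d) x = 0 → T.cW (β d) (g x) = 0 := fun x hx => S.ω_ext fun u => by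
    rw [← S.B_cW, ← le_apply_inv g (T.τ u d), S.hM hg, a1, S.B_cW, hx, map_zero, map_zero]
  obtain ⟨u, hu⟩ := exists_ne (0 : U)
  have hu' : α u ≠ 0 := by simpa using hu
  obtain ⟨v, hv⟩ := S.exists_ω hu'
  obtain ⟨z, hz⟩ : ∃ z, z = g * S.tU u 1 * g⁻¹ := ⟨_, rfl⟩
  have hzM : z ∈ M := hz ▸ M.mul_mem (M.mul_mem hg (S.tU_memM _ _)) (M.inv_mem hg)
  set k := S.tU (α u) (-ω u (α⁻¹ v)) * z with hk
  have hkM : k ∈ M := M.mul_mem (S.tU_memM _ _) hzM
  have a3 : ∀ a, k (T.τ a d) = T.τ a d := fun a => by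
    rw [hk, le_mul_apply, hz, le_mul_apply, le_mul_apply, a1, S.tU_τ, hα, S.tU_τ]
    congr 2
    have : ω u (α⁻¹ a) = ω u (α⁻¹ v) * ω (α u) a := by
      conv_lhs => rw [S.two_basis hn hv a]
      simp [S.ωalt, mul_comm]
    rw [this]
    simp [S.ωalt]
  suffices H : Lev T Q d k by
    obtain ⟨w, hw, hw'⟩ := S.of_lev hn h0 hd hkM H
    obtain ⟨γ, e⟩ := hw'.ten hd hw
    exact S.r1' hI hu one_ne_zero hg (hz ▸ (T.TG.mul_mem_cancel_left (S.tU_mem _ _).1).1
      (show k ∈ T.TG from ⟨1, γ, e⟩))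
  refine ⟨a3, fun x hx => ?_⟩
  obtain ⟨a, ha⟩ := S.memN (m := k x - x) (d := d) fun w hw a => by
    have hw' := (pb_comm d w).trans hw
    obtain ⟨e, he⟩ := S.exists_isE hd hw'
    have b1 := he.lev hd hw'
    obtain ⟨w', b2, b3⟩ := S.of_lev hn h0 hd (k := g⁻¹ * e * g)
      (M.mul_mem (M.mul_mem (M.inv_mem hg) he.1) hg)
      ⟨fun a => by rw [le_mul_apply, le_mul_apply, hα, b1.1, a1, le_inv_apply_apply],
        fun x hx => by
          obtain ⟨a, ha⟩ := b1.2 _ (a2 x hx)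
          exact ⟨_, by rw [le_mul_apply, le_mul_apply, ha, map_add, a1, le_inv_apply_apply]⟩⟩
    obtain ⟨γ, b4⟩ := b3.ten hd b2
    obtain ⟨γ', b5⟩ := he.ten hd hw'
    have b6 : S.tU u 1 * (g⁻¹ * e * g) = g⁻¹ * e * g * S.tU u 1 := eq_of_τ T fun a b => by
      rw [le_mul_apply, le_mul_apply _ (S.tU _ _), b4, S.tU_τ, S.tU_τ, b4]
    have b7 : ∀ c, S.tU (α u) c * e = e * S.tU (α u) c := fun c => eq_of_τ T fun a b => by
      rw [le_mul_apply, le_mul_apply _ (S.tU _ _), b5, S.tU_τ, S.tU_τ, b5]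
    have b8 : k * e = e * k := by
      rw [hk, ← mul_assoc, ← b7, mul_assoc, mul_assoc, hz]
      congr 1
      calc g * S.tU u 1 * g⁻¹ * e = g * (S.tU u 1 * (g⁻¹ * e * g)) * g⁻¹ := by group
        _ = _ := by rw [b6]; group
    have b9 := LinearEquiv.congr_fun b8 x
    rw [le_mul_apply k, le_mul_apply e, he.2, he.2, S.cW_fix hkM a3, hx] at b9
    simp only [smul_zero, sub_zero, map_zero, LinearMap.zero_apply, map_add, a3] at b9
    rw [S.B_cW, map_sub, τ_right_inj T h0 (add_left_cancel b9), sub_self, map_zero]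
  exact ⟨a, by rw [← ha]; abel⟩

theorem col' (hn : finrank F U = 2) (hI : H21.TO.Idx1 (PQ.ofQuad Q)) {d d' : W} (h0 : d ≠ 0)
    (h0' : d' ≠ 0) (hd : Q d = 0) (hd' : Q d' = 0) {g : V ≃ₗ[F] V} (hg : g ∈ M)
    (h1 : ∀ u, g (T.τ u d) ∈ T.col d') : g ∈ T.TG := by
  obtain ⟨γ, hγ, c, -, e⟩ := H21.TO.exists_EG_point S.orth S.dimW hI h0' h0
    ((pb_self d').trans (by rw [hd', mul_zero])) ((pb_self d).trans (by rw [hd, mul_zero]))
  have := S.stab' hn hI h0 hd (M.mul_mem (S.memW (EG_le_isom hγ)) hg) fun u => by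
    obtain ⟨a, ha⟩ := h1 u
    exact ⟨c • a, by rw [le_mul_apply, ← ha]; simp [e]⟩
  exact (T.TG.mul_mem_cancel_left (T.opE_mem 1 γ)).1 this

theorem kE' (hn : finrank F U = 2) (hk : finrank F W = 4) (hI : H21.TO.Idx1 (PQ.ofQuad Q)) {d x : W}
    (hd0 : d ≠ 0) (hd : Q d = 0) (hx : Q x ≠ 0) (hdx : β d x = 0) {g y : V ≃ₗ[F] V}
    (hg : S.IsE d x g) (hy : y ∈ M) (h : y⁻¹ * g * y ∈ T.TG) : y ∈ T.TG := by
  have := S.nontrivialU
  have := S.nontrivialW
  obtain ⟨hg, eg⟩ := hg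
  have hdd : β d d = 0 := by rw [pb_self, hd, mul_zero]
  have hx0 : x ≠ 0 := by rintro rfl; simp at hx
  have h1 : ∀ m, g (g m - m) - (g m - m) = T.τ ((-(2 * Q x)) • T.cW (β d) m) d := fun m => by
    rw [eg m, add_sub_assoc, add_sub_cancel_left, eg]
    simp only [map_sub, map_smul, TS.cW_τ, hdd, hdx, pb_comm x d, pb_self, LinearMap.sub_apply,
      LinearMap.smul_apply, map_zero, zero_smul, LinearMap.zero_apply]
    module
  have hM : y⁻¹ * g * y ∈ M := M.mul_mem (M.mul_mem (M.inv_mem hy) hg) hy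
  have hp : g ^ ringChar F = 1 := by
    have : Fact (ringChar F).Prime := ⟨CharP.char_is_prime F _⟩
    have := T.nontrivial
    have := charP_of_injective_algebraMap (algebraMap F (Module.End F V)).injective (ringChar F)
    have h3 : 3 ≤ ringChar F := by
      have h4 := (Fact.out : (ringChar F).Prime).two_le
      have h5 : ringChar F ≠ 2 := fun h => S.two (by exact_mod_cast (ringChar.spec F 2).2 (h ▸ dvd_rfl))
      omega
    refine LinearEquiv.toLinearMap_injective ?_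
    rw [H21.TO.coe_pow', ← sub_eq_zero]
    change _ - (1 : Module.End F V) = 0
    rw [← one_pow (ringChar F), ← sub_pow_char_of_commute _ (Commute.one_right _)]
    refine pow_eq_zero_of_le h3 (LinearMap.ext fun m => ?_)
    change g (g (g m - m) - (g m - m)) - (g (g m - m) - (g m - m)) = 0
    rw [h1 m, eg]
    simp [hd, pb_comm x d, hdx]
  obtain ⟨a, b, e, ha, -, -, ib⟩ := H21.TO.unip_form S.tf h (PQ.mem_isom_ofAlt.2 (S.hM hM)) (by
    rw [show y⁻¹ * g * y = y⁻¹ * g * y⁻¹⁻¹ by simp, conj_pow, hp]; simp)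
  have h2 : ∀ m, g (y m) = y ((y⁻¹ * g * y) m) := fun m => by
    rw [le_mul_apply, le_mul_apply, le_apply_inv]
  obtain ⟨u, hu⟩ := exists_ne (0 : U)
  obtain ⟨v, hv⟩ := S.exists_ω hu
  obtain ⟨f, hf⟩ := S.exists_β hd0
  have h4 : ¬ ∀ p w, T.τ ((-(2 * Q x)) • T.cW (β d) (y (T.τ p w))) d = 0 := fun hc => by
    have h5 := T.ind (p := fun m => T.τ ((-(2 * Q x)) • T.cW (β d) (y m)) d = 0) (y⁻¹ (T.τ u f))
      (by simp) hc fun a b e1 e2 => by
        simp only [map_add, smul_add, LinearMap.add_apply, e1, e2, add_zero]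
    rw [le_apply_inv, TS.cW_τ, hf] at h5
    simp [T.τ_eq_zero, S.two, hx, hu, hd0] at h5
  by_cases ha0 : a - 1 = 0
  · obtain rfl := sub_eq_zero.1 ha0
    have h3 : ∀ u w, y (T.τ u (b (b w - w) - (b w - w))) =
        T.τ ((-(2 * Q x)) • T.cW (β d) (y (T.τ u w))) d := fun u w => by
      rw [← h1, h2, ← map_sub y, h2, e, Module.End.one_apply, ← map_sub (T.τ u), e,
        Module.End.one_apply, ← map_sub y, ← map_sub (T.τ u)]
    obtain ⟨w, hw⟩ : ∃ w, b (b w - w) - (b w - w) ≠ 0 := by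
      by_contra hc
      push Not at hc
      exact h4 fun p w => by rw [← h3, hc]; simp
    refine S.col' hn hI hw hd0 ?_ hd hy fun a => h3 a w ▸ T.τ_mem_col _ _
    have h4 := S.hM hy (T.τ u (b (b w - w) - (b w - w))) (T.τ v (b (b w - w) - (b w - w)))
    rw [h3, h3, S.Bτ, S.Bτ, hdd, hv, pb_self] at h4
    simpa [S.two] using h4
  exfalso
  obtain ⟨p, c1, c2⟩ := H21.TO.exists_ker_range ha ha0
  set n := a - 1 with hn'
  have c3 : ∀ z, a z = z + n z := fun z => by simp [hn']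
  obtain ⟨φ, c4, c5⟩ := exists_dual_of_notMem_span (F := F) (u := p) (x := n p) (fun h => by
    obtain ⟨c, hc⟩ := Submodule.mem_span_singleton.1 h
    exact c1 (by rw [← hc, map_smul, c2, smul_zero])) 1
  obtain ⟨ψ, c6, c7⟩ := exists_dual_of_notMem_span (F := F) (u := n p) (x := p) (fun h => by
    obtain ⟨c, hc⟩ := Submodule.mem_span_singleton.1 h
    have := c2
    rw [← hc, map_smul, ← hc, smul_smul, smul_eq_zero, mul_self_eq_zero] at this
    exact c1 (by rcases this with h | h <;> simp [← hc, h])) 1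
  let N : Module.End F V := ((y⁻¹ * g * y : V ≃ₗ[F] V) : V →ₗ[F] V) - 1
  have n1 : ∀ w, N (T.τ p w) = T.τ p (b w - w) + T.τ (n p) (b w) := fun w => by
    change (y⁻¹ * g * y) _ - _ = _
    rw [e, c3 p]; simp; abel
  have n2 : LinearMap.range (N ∘ₗ T.τ p) = LinearMap.range N := by
    refine Submodule.eq_of_le_of_finrank_le (LinearMap.range_comp_le_range _ _) ?_
    rw [LinearMap.finrank_range_of_inj ((injective_iff_map_eq_zero _).2 fun w hw => S.Qnd w fun w' => by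
      have := congrArg (T.cU ψ) ((n1 w).symm.trans hw)
      simp only [map_add, TS.cU_τ, c6, c7, one_smul, zero_smul, zero_add, map_zero] at this
      exact (ib w w').symm.trans (by rw [this]; simp))]
    have h1 : LinearMap.range N ≤ (T.col d ⊔ T.col x).map ((y⁻¹ : V ≃ₗ[F] V) : V →ₗ[F] V) := by
      rintro _ ⟨m, rfl⟩
      refine ⟨g (y m) - y m, ?_, by
        rw [map_sub, LinearEquiv.coe_coe, le_inv_apply_apply]; rfl⟩
      rw [eg, add_sub_assoc, add_sub_cancel_left]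
      exact Submodule.sub_mem _ (Submodule.mem_sup_left (T.τ_mem_col _ _))
        (Submodule.mem_sup_right (T.τ_mem_col _ _))
    have h2 := Submodule.finrank_mono h1
    have h3 := Submodule.finrank_add_le_finrank_add_finrank (T.col d) (T.col x)
    rw [LinearEquiv.finrank_map_eq] at h2
    rw [T.finrank_col hd0, T.finrank_col hx0] at h3
    omega
  obtain rfl := S.eq_one_of_sq hI (γ := b) ib fun w => by
    obtain ⟨w', hw'⟩ := n2.ge ⟨T.τ (n p) w, rfl⟩
    have n3 : N (T.τ (n p) w) = T.τ (n p) (b w - w) := by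
      change (y⁻¹ * g * y) _ - _ = _
      rw [e, c3 (n p), c2]; simp
    rw [LinearMap.comp_apply, n1, n3] at hw'
    have d1 := congrArg (T.cU φ) hw'
    have d2 := congrArg (T.cU ψ) hw'
    simp only [map_add, TS.cU_τ, c4, c5, c6, c7, one_smul, zero_smul, zero_add, add_zero] at d1 d2
    rw [← d2, sub_eq_zero.1 d1, sub_eq_zero.1 d1]
  have n4 : n ^ 2 = 0 := by
    have := LinearMap.aeval_self_charpoly n
    rwa [ha.charpoly_eq_X_pow_finrank, hn, map_pow, Polynomial.aeval_X] at this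
  refine h4 fun r w => ?_
  rw [← h1, h2, ← map_sub y, h2, e, Module.End.one_apply, c3 r, map_add, LinearMap.add_apply,
    add_sub_cancel_left, e, c3 (n r), show n (n r) = 0 from LinearMap.congr_fun n4 r]
  simp

end Over

end H28.Low
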