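import Mathlib
import Cfsg.Agent.Base
import Cfsg.Agent.Lib.LowRows.SpO7

/-!
Symplectic tensor orthogonal: the case `Sp₂ ⊗ O₄⁻`.
-/

set_option autoImplicit false
set_option linter.unusedSectionVars false

namespace H28.Low

open Module Cfsg H28 H97 H11.Ten

variable {F U W V : Type*} [Field F] [AddCommGroup U] [Module F U] [AddCommGroup W]
  [Module F W] [AddCommGroup V] [Module F V] [FiniteDimensional F U] [FiniteDimensional F W]
  [FiniteDimensional F V] [Finite F]

/-- An invariant commutative space of self-adjoint maps consists of scalars. -/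
theorem scalar_of_comm {Q : QuadraticForm F W} (h2 : (2 : F) ≠ 0)
    (hQ : (QuadraticMap.polarBilin Q).SeparatingLeft) (hk : 4 ≤ finrank F W)
    {A : Submodule F (Module.End F W)}
    (hc : ∀ γ ∈ (PQ.ofQuad Q).Isom, ∀ a ∈ A, (γ : W →ₗ[F] W) ∘ₗ a ∘ₗ γ.symm ∈ A)
    (hm : ∀ a ∈ A, ∀ b ∈ A, a * b = b * a) {a : Module.End F W} (ha : a ∈ A)
    (hs : ∀ x y, QuadraticMap.polarBilin Q (a x) y = QuadraticMap.polarBilin Q x (a y)) :
    ∃ c : F, ∀ x, a x = c • x := by
  set P := PQ.ofQuad Q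
  refine scalar_of_nonsing h2 hQ (by omega) fun w hw => ?_
  by_contra hn
  have hw0 : w ≠ 0 := by rintro rfl; simp at hw
  have hnd : (F ∙ w) ⊓ perp P (F ∙ w) = ⊥ := by
    rw [eq_bot_iff]
    rintro _ ⟨hv, hv'⟩
    obtain ⟨c, rfl⟩ := Submodule.mem_span_singleton.1 hv
    have : QuadraticMap.polarBilin Q w (c • w) = 0 := mem_perp_singleton.1 hv'
    rw [map_smul, pb_self, smul_eq_mul] at this
    simp [(mul_eq_zero.1 this).resolve_right (mul_ne_zero h2 hw)]
  have h4 := finrank_perp (P := P) hQ (F ∙ w)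
  rw [finrank_span_singleton hw0] at h4
  have hirr : Irr P (perp P (F ∙ w)) :=
    (irr_or hQ (perp_nondeg hQ hnd)).resolve_right fun h => by omega
  let Z : Submodule F W :=
    { carrier := {y | QuadraticMap.polarBilin Q w y = 0 ∧ sy Q 1 w y ∈ A}
      zero_mem' := ⟨by simp, by
        convert A.zero_mem using 1
        ext; simp [sy_apply]⟩
      add_mem' := fun {a b} ha hb => ⟨by rw [map_add, ha.1, hb.1, add_zero], by
        convert A.add_mem ha.2 hb.2 using 1
        ext y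
        simp only [sy_apply, map_add, LinearMap.add_apply]
        module⟩
      smul_mem' := fun c a ha => ⟨by rw [map_smul, ha.1, smul_zero], by
        convert A.smul_mem c ha.2 using 1
        ext y
        simp only [sy_apply, map_smul, LinearMap.smul_apply, smul_eq_mul]
        module⟩ }
  rcases hirr Z (fun y hy => mem_perp_singleton.2 hy.1) (fun g hg hg' y hy => by
    have h1 := stab_of_perp hQ hg hg'
    obtain ⟨c, hc'⟩ := Submodule.mem_span_singleton.1
      ((h1 w).1 (Submodule.mem_span_singleton_self w))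
    have hc0 : c ≠ 0 := by
      rintro rfl
      exact hw0 (by simpa using hc'.symm)
    refine ⟨mem_perp_singleton.1 ((hg' y).1 (mem_perp_singleton.2 hy.1)), ?_⟩
    have h2 := A.smul_mem c⁻¹ (hc g hg _ hy.2)
    rw [sy_conj hg, ← hc'] at h2
    convert h2 using 1
    ext z
    simp only [sy_apply, map_smul, LinearMap.smul_apply, smul_eq_mul, smul_add, smul_smul]
    field_simp) with h1 | h1
  · have h3 := (Submodule.eq_bot_iff Z).1 h1 ((-(Q w)⁻¹) •
      (a w - ((2 * Q w)⁻¹ * QuadraticMap.polarBilin Q w (a w)) • w)) ⟨by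
        simp only [map_sub, map_smul, pb_self, smul_eq_mul]
        field_simp
        ring, by
      convert A.sub_mem (hc _ (rW_mem hw) a ha) ha using 1
      ext y
      have e : (rW hw).symm y = rW hw y := rfl
      simp only [sy_apply, LinearMap.sub_apply, LinearMap.comp_apply, LinearEquiv.coe_coe, e,
        rW_apply, map_sub, map_smul, LinearMap.smul_apply, smul_eq_mul, hs w y]
      match_scalars
      · field_simp; ring
      · ring
      · ring⟩
    rw [smul_eq_zero, sub_eq_zero] at h3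
    exact hn (h3.resolve_left (by simpa using hw) ▸
      Submodule.smul_mem _ _ (Submodule.mem_span_singleton_self w))
  obtain ⟨x, hx0, hx, -⟩ := exists_ker_two (show 3 ≤ finrank F W by omega)
    (QuadraticMap.polarBilin Q w) 0
  obtain ⟨y, hy, hy'⟩ : ∃ y ∈ perp P (F ∙ w), y ∉ F ∙ x := by
    by_contra h
    push Not at h
    have := Submodule.finrank_mono (show perp P (F ∙ w) ≤ F ∙ x from h)
    have := finrank_span_singleton_le (F := F) x
    omega
  have hy1 : QuadraticMap.polarBilin Q w y = 0 := mem_perp_singleton.1 hy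
  obtain ⟨z, z1, z2⟩ := exists_perp_ne (P := P) hQ hy' 1
  have h5 := LinearMap.congr_fun (hm _ (h1 ▸ mem_perp_singleton.2 hx : x ∈ Z).2 _
    (h1 ▸ hy : y ∈ Z).2) z
  replace z1 : QuadraticMap.polarBilin Q x z = 0 := z1
  replace z2 : QuadraticMap.polarBilin Q y z = 1 := z2
  simp only [Module.End.mul_apply, sy_apply, z1, z2, map_add, map_smul, pb_self, hx, hy1,
    pb_comm x w, pb_comm y w, pb_comm y x, smul_eq_mul] at h5
  have h6 : (2 * Q w) • x = 0 := by linear_combination (norm := module) h5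
  exact hx0 ((smul_eq_zero.1 h6).resolve_left (mul_ne_zero h2 hw))

namespace Over

variable {T : TS F U W V} {ω : LinearMap.BilinForm F U} {Q : QuadraticForm F W}
  {B : LinearMap.BilinForm F V} {M : Subgroup (V ≃ₗ[F] V)} (S : Over T ω Q B M)
  (hn : finrank F U = 2)

local notation "β" => QuadraticMap.polarBilin Q

include S hn

theorem ptr_eq {u v : U} (hv : ω u v = 1) (a : Module.End F V) (w w' : W) :
    β w' (T.ptr a w) = B (T.τ u w') (a (T.τ v w)) - B (T.τ v w') (a (T.τ u w)) := by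
  have h1 : ∀ s : Module.End F U, LinearMap.trace F U s = ω u (s v) - ω v (s u) := fun s => by
    have : s = (ω u).smulRight (s v) - (ω v).smulRight (s u) := LinearMap.ext fun a => by
      conv_lhs => rw [S.two_basis hn hv a]
      simp
      abel
    conv_lhs => rw [this]
    simp
  exact LinearMap.congr_fun (T.end_ext (f := β w' ∘ₗ LinearMap.applyₗ w ∘ₗ T.ptr)
    (g := B (T.τ u w') ∘ₗ LinearMap.applyₗ (T.τ v w) - B (T.τ v w') ∘ₗ LinearMap.applyₗ (T.τ u w))
    fun s x => by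
      simp only [LinearMap.comp_apply, T.ptr_op, h1, LinearMap.applyₗ_apply_apply, TS.op_τ, S.Bτ,
        LinearMap.sub_apply, LinearMap.smul_apply, map_smul, smul_eq_mul]
      ring) a

variable (hk : finrank F W = 4) (hI : H21.TO.Idx1 (PQ.ofQuad Q))
include hk hI

theorem ptr_sym {g : V ≃ₗ[F] V} (hg : g ∈ M) {s : Module.End F U}
    (hs : LinearMap.trace F U s = 0) (p q : W) :
    β q (T.ptr (cN g (T.op s 1)) p) = β p (T.ptr (cN g (T.op s 1)) q) := by
  classical
  have := S.nontrivialU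
  have := S.nontrivialW
  have : Finite (Module.End F (Module.End F V)) := Module.finite_of_finite F
  let 𝒮 : Finset (Module.End F (Module.End F V)) :=
    (Set.toFinite {f | ∃ g ∈ M, f = H11.Ten.act g T.Θ}).toFinset
  have m : ∀ {f}, f ∈ 𝒮 ↔ ∃ g ∈ M, f = H11.Ten.act g T.Θ := by simp [𝒮]
  have c1 : ∀ g ∈ M, ∀ f ∈ 𝒮, H11.Ten.act g f ∈ 𝒮 := fun g hg f hf => by
    obtain ⟨k, hk, rfl⟩ := m.1 hf
    exact m.2 ⟨g * k, M.mul_mem hg hk, (H11.Ten.act_mul _ _ _).symm⟩
  have c0 : T.Θ ∈ 𝒮 := m.2 ⟨1, M.one_mem, (H11.Ten.act_one _).symm⟩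
  have c2 : ∀ {g}, H11.Ten.act g T.Θ = T.Θ ↔ g ∈ T.TG := fun {g} => by
    rw [← T.Θ_map, ← TS.same_map_iff]
    exact ⟨TS.same_of_Θ, TS.Same.Θ_eq⟩
  have h3 : 3 ≤ Nat.card F := by
    have := Fintype.ofFinite F
    have h5 : (1 : F) ≠ -1 := fun h => S.two (by linear_combination h)
    rw [Nat.card_eq_fintype_card, ← show ({0, 1, -1} : Finset F).card = 3 by
      rw [Finset.card_insert_of_notMem (by simp), Finset.card_pair h5]]
    exact Finset.card_le_univ _
  have c3 : ∀ s x, (∀ G, H21.TO.Kill (PQ.ofQuad Q) 3 G → G x = 0) →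
      (∑ f ∈ 𝒮, f) (T.op s x) = LinearMap.trace F U s • T.inW x := fun s x hx => by
    rw [← Finset.add_sum_erase _ _ c0, LinearMap.add_apply, T.Θ_op,
      H21.TO.van S.tf S.orth (H21.TO.he_idx S.orth hI hk.ge (by omega)) hx _ (fun f hf γ hγ => ?_)
        (fun f hf γ hγ e => ?_), add_zero]
    · refine Finset.mem_erase.2 ⟨fun e => (Finset.mem_erase.1 hf).1 (H11.Ten.act_injective _
        (e.trans (c2.2 (T.opE_mem 1 γ)).symm)), c1 _ (S.memW (EG_le_isom hγ)) _
          (Finset.mem_of_mem_erase hf)⟩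
    obtain ⟨k, hkM, rfl⟩ := m.1 (Finset.mem_of_mem_erase hf)
    have hγ' := S.memW (EG_le_isom (H21.TO.RR_sub S.orth hγ))
    obtain ⟨d, x, d0, d1, d2, d3, d4⟩ := hγ
    have d5 : Q d = 0 := S.tf.maxW d d1
    refine (Finset.mem_erase.1 hf).1 (c2.2 (S.kE' hn hk hI (x := x) d0 d5
      (fun h => d3 ((pb_self x).trans (by rw [h, mul_zero]))) d2 ⟨hγ', fun z => ?_⟩ hkM
      (c2.1 (by rw [H11.Ten.act_mul, H11.Ten.act_mul, e, ← H11.Ten.act_mul, inv_mul_cancel, H11.Ten.act_one]))))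
    rw [H21.TO.opE_right T (b := eu (PQ.ofQuad Q) d x (Q x)) fun y => by
      rw [d4, H21.TO.ex_wd S.orth d1 d2]; simp; rfl]
    rw [show H21.TO.opR T (eu (PQ.ofQuad Q) d x (Q x)) =
      T.op LinearMap.id (eu (PQ.ofQuad Q) d x (Q x)) from T.lext fun _ _ => by simp, T.op_eu]
    simp [TS.cB, PQ.ofQuad]
  have c4 : ∀ a b, LinearMap.trace F V ((∑ f ∈ 𝒮, f) a * b) =
      LinearMap.trace F V (a * (∑ f ∈ 𝒮, f) b) := fun a b => by
    simp only [LinearMap.sum_apply, Finset.sum_mul, Finset.mul_sum, map_sum]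
    refine Finset.sum_congr rfl fun f hf => ?_
    obtain ⟨k, -, rfl⟩ := m.1 hf
    rw [← T.Θ_map, TS.Θ_apply, TS.Θ_apply, LinearMap.trace_mul_comm, ← TS.trace_ptr,
      ← TS.trace_ptr, LinearMap.trace_mul_comm]
  have c5 : (∑ f ∈ 𝒮, f) (cN g (T.op s 1)) = 0 := by
    rw [← act_sum_eq (c1 g hg), H11.Ten.act_apply, cN_inv_cN, c3 s 1 fun G hG => ?_, hs, zero_smul]
    · exact map_zero (cA g)
    refine LinearMap.ext₂ fun y y' => ?_
    obtain ⟨w, hw, h0, hq⟩ := isoK_quad Q (⊤ ⊓ LinearMap.ker (β y)) (by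
      have := finrank_ker_dual ⊤ (β y)
      rw [finrank_top] at this
      omega)
    obtain ⟨r, c, ζ, f, k⟩ := hG w h0 ((pb_self w).trans (by rw [show Q w = 0 from hq, mul_zero]))
    exact k 1 y y' 0 1 2 le_rfl (H21.PD.congr (H21.PD.const 1) fun a => map_one (cA (ζ a)))
      (f.pd1 S.orth ((pb_comm w y).trans hw.2)) (f.pd2 S.orth y')
  have c6 := c4 (cN g (T.op s 1)) (T.op 1 (H21.TO.wd (PQ.ofQuad Q) p q))
  rw [c5, c3 1 _ fun G hG => hG.three S.orth S.dimW (Submodule.subset_span ⟨p, q, rfl⟩),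
    LinearMap.trace_one, hn, zero_mul, map_zero, mul_smul_comm, map_smul, ← TS.trace_ptr] at c6
  generalize T.ptr (cN g (T.op s 1)) = C at c6
  rw [show C * H21.TO.wd (PQ.ofQuad Q) p q = (β q).smulRight (C p) - (β p).smulRight (C q) from
    LinearMap.ext fun z => by simp [PQ.ofQuad], map_sub, LinearMap.trace_smulRight,
    LinearMap.trace_smulRight] at c6
  exact sub_eq_zero.1 ((smul_eq_zero.1 c6.symm).resolve_left (by exact_mod_cast S.two))

theorem le_TG_four : M ≤ T.TG := fun g hg => by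
  have := S.nontrivialU
  obtain ⟨u, hu⟩ := exists_ne (0 : U)
  obtain ⟨v, hv⟩ := S.exists_ω hu
  have hvu : ω v u = -1 := by rw [S.ωcomm, hv]
  let E : U → Module.End F W →ₗ[F] Module.End F V := fun p =>
    (LinearMap.llcomp F V W V (T.τ p)) ∘ₗ LinearMap.lcomp F W (T.cU (ω p))
  have eE : ∀ p C x, E p C x = T.τ p (C (T.cU (ω p) x)) := fun _ _ _ => rfl
  let K : Submodule F (Module.End F V) := Submodule.span F {a | ∃ g ∈ M, ∃ p, a = cN g (E p 1)}
  have k1 : ∀ k ∈ M, ∀ a ∈ K, cN k a ∈ K := fun k hk a ha =>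
    (Submodule.span_le (p := K.comap (cA k).toLinearMap)).2 (by
      rintro _ ⟨g, hg, p, rfl⟩
      exact Submodule.subset_span ⟨k * g, M.mul_mem hk hg, p, (cN_mul _ _ _).symm⟩) ha
  have k2 : ∀ g ∈ M, ∀ p, ∀ b ∈ K, cN g (E p 1) * b - b * cN g (E p 1) ∈ K ∧
      cN g (E p 1) * b * cN g (E p 1) ∈ K := fun g hg p b hb => by
    have a1 : ∀ c : F, cN (g * S.tU p c * g⁻¹) b =
        (1 + c • cN g (E p 1)) * b * (1 - c • cN g (E p 1)) := fun c => LinearMap.ext fun x => by
      have b1 : (S.tU p c)⁻¹ (g⁻¹ x) = S.tU p (-c) (g⁻¹ x) := by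
        rw [le_inv_apply, LinearEquiv.symm_apply_eq, S.tU_apply, S.tU_apply]
        simp [S.ωalt]
      rw [cN_apply, mul_inv_rev, mul_inv_rev, inv_inv, le_mul_apply, le_mul_apply, le_mul_apply,
        le_mul_apply, b1, S.tU_apply, S.tU_apply]
      simp [cN_apply, eE, sub_eq_add_neg]
    have a2 := fun c => a1 c ▸ k1 _
      (M.mul_mem (M.mul_mem hg (S.tU_memM p c)) (M.inv_mem hg)) b hb
    generalize cN g (E p 1) = a at a2
    refine ⟨(K.smul_mem_iff S.two).1 ?_, (K.smul_mem_iff S.two).1 ?_⟩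
    · convert K.sub_mem (a2 1) (a2 (-1)) using 1
      simp only [mul_add, add_mul, mul_sub, sub_mul, smul_mul_assoc, mul_smul_comm, mul_one, one_mul]
      module
    · convert K.sub_mem (K.sub_mem (K.smul_mem 2 hb) (a2 1)) (a2 (-1)) using 1
      simp only [mul_add, add_mul, mul_sub, sub_mul, smul_mul_assoc, mul_smul_comm, mul_one, one_mul]
      module
  have k3 : ∀ a ∈ K, ∀ b ∈ K, a * b - b * a ∈ K := fun a ha b hb =>
    (Submodule.span_le (p := K.comap (LinearMap.mulRight F b - LinearMap.mulLeft F b))).2 (by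
      rintro _ ⟨g, hg, p, rfl⟩
      exact (k2 g hg p b hb).1) ha
  have k4 : ∀ a ∈ K, (∀ x y, B x (a y) = B y (a x)) ∧ ∀ w w',
      B (T.τ u w') (a (T.τ v w)) = B (T.τ v w') (a (T.τ u w)) := fun a ha => by
    refine Submodule.span_induction ?_ (by simp) (fun a b _ _ h1 h2 => ⟨fun x y => by
      simp [h1.1 x y, h2.1 x y], fun x y => by simp [h1.2 x y, h2.2 x y]⟩)
      (fun c a _ h1 => ⟨fun x y => by simp [h1.1 x y], fun x y => by simp [h1.2 x y]⟩) ha
    rintro _ ⟨g, hg, p, rfl⟩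
    have a1 : ∀ x y, B x (cN g (E p 1) y) = B y (cN g (E p 1) x) := fun x y => by
      obtain ⟨x, rfl⟩ := g.surjective x
      obtain ⟨y, rfl⟩ := g.surjective y
      simp only [cN_apply, le_inv_apply_apply, eE, Module.End.one_apply]
      rw [S.hM hg, S.hM hg, S.Bcomm, S.Bcomm y, S.B_cU, S.B_cU, pb_comm]
    refine ⟨a1, fun w w' => ?_⟩
    have a2 := S.ptr_sym hn hk hI hg (s := (ω p).smulRight p) (by simp [S.ωalt]) w w'
    rw [show T.op ((ω p).smulRight p) 1 = E p 1 from T.lext fun a b => by simp [eE],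
      S.ptr_eq hn hv, S.ptr_eq hn hv, a1 (T.τ u w), a1 (T.τ v w)] at a2
    exact mul_left_cancel₀ S.two (by linear_combination a2)
  have k5 : ∀ p, p ≠ 0 → ∀ C, E p C ∈ K → E u C ∈ K ∧ E v C ∈ K := fun p hp C hC => by
    have : ∀ r, r ≠ 0 → E r C ∈ K := fun r hr => by
      obtain ⟨α, hα, rfl⟩ := S.exists_α hp hr
      convert k1 _ (S.memU hα) _ hC using 1
      ext x
      rw [cN_apply, eE, eE, TS.opE_τ, S.cU_opU hα]
      rfl
    exact ⟨this u hu, this v (by rintro rfl; simp at hv)⟩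
  have k6 : ∀ C, E u C ∈ K → ∃ c : F, ∀ x, C x = c • x := fun C hC => by
    refine scalar_of_comm S.two S.Qnd hk.ge (A := K.comap (E u)) (fun γ hγ a ha => ?_)
      (fun a ha b hb => LinearMap.ext fun w => S.β_ext fun w' => ?_) hC fun x y => ?_
    · convert k1 _ (S.memW hγ) _ ha using 1
      refine iff_of_eq (congrArg (· ∈ K) (LinearMap.ext fun x => ?_))
      rw [cN_apply, eE, eE, TS.opE_τ, S.cU_opW hγ]
      rfl
    · have := (k4 _ (k3 _ ha _ (k5 u hu b hb).2)).2 w w'
      simp only [LinearMap.sub_apply, Module.End.mul_apply, eE, TS.cU_τ, S.ωalt, hv, hvu, map_sub,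
        map_smul, S.Bτ, zero_smul, map_zero, one_smul, smul_eq_mul] at this ⊢
      linear_combination -this
    · have := (k4 _ hC).1 (T.τ v x) (T.τ v y)
      simp only [eE, TS.cU_τ, hv, one_smul, S.Bτ, hvu] at this
      rw [pb_comm]
      linear_combination this
  have hK : cN g (E u 1) ∈ K := Submodule.subset_span ⟨g, hg, u, rfl⟩
  have hz : g * S.tU u 1 * g⁻¹ ∈ M := M.mul_mem (M.mul_mem hg (S.tU_memM _ _)) (M.inv_mem hg)
  refine S.r1' hI hu one_ne_zero hg (S.mem_TG_of_nonsing (S.hM hz) fun w _ => ⟨w, fun r => ?_⟩)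
  rw [show (g * S.tU u 1 * g⁻¹) (T.τ r w) = T.τ r w + cN g (E u 1) (T.τ r w) by
    rw [le_mul_apply, le_mul_apply, S.tU_apply, map_add, le_apply_inv, one_smul]; rfl]
  generalize cN g (E u 1) = a at hK
  obtain ⟨m, hm⟩ := S.memN (m := a (T.τ r w)) (d := w) fun w' hw r' => by
    have a1 : ∀ p, p ≠ 0 → B (T.τ p w') (a (T.τ p w)) = 0 := fun p hp => by
      have := (k2 1 M.one_mem p a hK).2
      rw [cN_one] at this
      obtain ⟨c, hc⟩ := k6 _ (k5 p hp (T.cU (ω p) ∘ₗ a ∘ₗ T.τ p) this).1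
      rw [S.B_cU]
      change β w' ((T.cU (ω p) ∘ₗ a ∘ₗ T.τ p) w) = 0
      rw [hc, map_smul, hw, smul_zero]
    have a2 := a1 u hu
    have a3 := a1 v (by rintro rfl; simp at hv)
    have a4 := a1 (u + v) fun h => by simpa [hv, S.ωalt] using congrArg (ω u) h
    have a5 := (k4 a hK).2 w w'
    simp only [map_add, LinearMap.add_apply, a2, a3, a5] at a4
    have a6 : B (T.τ v w') (a (T.τ u w)) = 0 := mul_left_cancel₀ S.two (by linear_combination a4)
    rw [S.two_basis hn hv r, S.two_basis hn hv r']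
    simp [a2, a3, a5, a6]
  exact Submodule.add_mem _ (T.τ_mem_col _ _) (hm ▸ T.τ_mem_col _ _)

end Over

theorem SO.isMaximalIn_four {T : TS F U W V} {ω : LinearMap.BilinForm F U} {Q : QuadraticForm F W}
    {B : LinearMap.BilinForm F V} (S : SO T ω Q B) (hn : finrank F U = 2) (hk : finrank F W = 4)
    (hI : H21.TO.Idx1 (PQ.ofQuad Q)) : Geo.IsMaximalIn (Isom B) (T.TG ⊓ Isom B) := by
  refine isMaximalIn_of inf_le_right (fun h => S.not_isom_le (h.trans inf_le_left))
    fun M h1 h2 ⟨g, hg, hg'⟩ => ?_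
  by_contra hc
  have S' : Over T ω Q B M := { S with hH := h1, hM := h2, hne := hc, hex := Or.inl hk.ge }
  exact hg' ⟨S'.le_TG_four hn hk hI hg, h2 hg⟩

open scoped Matrix MatrixGroups

/-- `Sp₂ ⊗ O₄⁻` is maximal in `Sp₈`. -/
theorem tensor_SpO_four {F : Type*} [Field F] [Fintype F] {m : ℕ} (hodd : Odd (Fintype.card F))
    {e : (Fin m ⊕ Fin m) ≃ Fin 2 × Fin 4} {P : GL (Fin m ⊕ Fin m) F}
    {f₁ : (Fin 2 → F) → (Fin 2 → F) → F} {f₂ : (Fin 4 → F) → (Fin 4 → F) → F}
    (hf₁ : Geo.IsSymplecticForm f₁) (hf₂ : Geo.IsSymmetricForm f₂)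
    (h4 : ¬ Geo.IsPlusTypeOn (fun v : Fin 4 → F => f₂ v v) ⊤)
    (hT : Geo.IsTensorFormStructure id (sympForm m F) f₁ f₂ e P) :
    Geo.IsMaximalIn (spGL m F) (Geo.tensorProductSubgroup 2 4 e P ⊓ spGL m F) := by
  have h2 := two_ne_zero_of_odd hodd
  obtain ⟨c, hc, h⟩ := tensor_pure_bil hT hf₁.bilinear hf₂.bilinear
  let Q : QuadraticForm F (Fin 4 → F) :=
    LinearMap.BilinMap.toQuadraticMap ((2 : F)⁻¹ • bilOf hf₂.bilinear)
  have hQ : ∀ x y, QuadraticMap.polarBilin Q x y = f₂ x y := fun x y => by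
    simp only [Q, QuadraticMap.polarBilin_apply_apply, LinearMap.BilinMap.polar_toQuadraticMap,
      LinearMap.smul_apply, bilOf_apply, hf₂.symm y x, smul_eq_mul]
    field_simp
    ring
  have S : SO (tsOf e P) (c • bilOf hf₁.bilinear) Q (H11.Sp.bilin m F) :=
    { two := h2
      ωalt := fun x => by simp [bilOf_apply, hf₁.alternating]
      ωnd := sep_smul (sep_of_nondeg hf₁.nondegenerate) hc
      Qnd := sep_of_nondeg (by simpa only [hQ] using hf₂.nondegenerate)
      alt := H11.Sp.form_self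
      nd := spP_nd m
      Bτ := fun u w u' w' => by rw [hQ]; exact h u w u' w'
      dimU := by simp
      dimW := by simp }
  rw [spGL_eq', tensorProductSubgroup_eq, ← pull_inf,
    show (spP m F).Isom = Isom (H11.Sp.bilin m F) from isom_eq S.alt]
  exact isMaximalIn_pull (S.isMaximalIn_four (by simp) (by simp) (H21.TO.idx1_of
    (H21.TO.ofQuad_orth h2 S.Qnd) (by simp) fun X hX hX' =>
      h4 ⟨X, le_top, fun x hx => (hQ x x).symm.trans (hX x hx), by simp [hX']⟩))

end H28.Low
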