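import Mathlib
import Cfsg.Agent.Base
import Cfsg.Agent.Lib.LowRows.SpO6
import Cfsg.Agent.Lib.LowRows.OSp
import Cfsg.Agent.Lib.Imprim.Sp
import Cfsg.Agent.Lib.Imprim.Pair
import Cfsg.Agent.Lib.ExtFld.Sp
import Cfsg.Agent.Lib.ExtFld.USp
import Cfsg.Agent.Lib.Subfld.Main

/-!
Reducible maximal subgroups of symplectic groups in every dimension.
-/

set_option autoImplicit false

namespace H28.Low

open Module Cfsg H97

variable {F : Type*} [Field F] [Fintype F] {m : ℕ}

theorem totSing_Sp (hm : 2 ≤ m) (W : Submodule F (Fin m ⊕ Fin m → F)) (hW0 : W ≠ ⊥)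
    (hW : Geo.IsTotallySingularFor (sympForm m F) W) :
    Geo.IsMaximalIn (spGL m F) (Geo.subspaceStabilizer W ⊓ spGL m F) := by
  rw [spGL_eq, subspaceStabilizer_eq, ← pull_inf]
  exact isMaximalIn_pull ((spP_isoK m).isMaximalIn_totSing (spP_nd m)
    (by rw [finrank_sp]; omega) hW0 (fun _ _ => trivial) hW (Or.inl (spP_lambda m)))

theorem nondeg_Sp (W : Submodule F (Fin m ⊕ Fin m → F)) (hW0 : W ≠ ⊥)
    (hW : Geo.IsNondegenerateOn (sympForm m F) W) (hdim : finrank F W < m) (hm : 3 ≤ m) :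
    Geo.IsMaximalIn (spGL m F) (Geo.subspaceStabilizer W ⊓ spGL m F) := by
  rw [spGL_eq, subspaceStabilizer_eq, ← pull_inf]
  rw [nondegOn_sp] at hW
  have h1 := finrank_perp (spP_nd (F := F) m) W
  rw [finrank_sp] at h1
  exact isMaximalIn_pull ((spP_isoK m).isMaximalIn_nondeg (spP_nd m) hW hW0
    (irr_of_lambda (spP_nd m) hW (spP_lambda m)) (by omega)
    fun g _ => not_swap_of_lt (by omega) g)

end H28.Low
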