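import Mathlib
import Cfsg.Agent.Base
import Cfsg.Agent.Lib.ClassMax.C8

/-!
The stabiliser in a symplectic group of an orthogonal pair of non-degenerate halves.
-/

set_option autoImplicit false
set_option linter.unusedSectionVars false

namespace H28.Low

open Module Cfsg H28 H97

variable {F V : Type*} [Field F] [AddCommGroup V] [Module F V] [FiniteDimensional F V]
  {B : LinearMap.BilinForm F V} {hA : ∀ x, B x x = 0}

theorem has_transv_isom (hB : B.SeparatingLeft) (c : F) (d : V) :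
    ∃ g ∈ (PQ.ofAlt B hA).Isom, ∀ x, g x = x + (c * B d x) • d :=
  (has_qrefl_isom (P := PQ.ofAlt B hA) hB (c := c) (d := d) trivial).congr fun x =>
    PQ.qrefl_apply _ c d x

theorem isMaximalIn_halves_Sp (hB : B.SeparatingLeft) {D : Fin 2 → Submodule F V}
    (hW : D 0 ⊓ perp (PQ.ofAlt B hA) (D 0) = ⊥) (h1 : D 1 = perp (PQ.ofAlt B hA) (D 0))
    (hd : finrank F (D 0) = finrank F (D 1)) (h0 : D 0 ≠ ⊥) :
    Geo.IsMaximalIn (PQ.ofAlt B hA).Isom (dstab D ⊓ (PQ.ofAlt B hA).Isom) := by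
  set P := PQ.ofAlt B hA with hP
  have hW' : D 1 ⊓ perp P (D 1) = ⊥ := by rw [h1]; exact perp_nondeg hB hW
  have h2 : perp P (D 1) = D 0 := by rw [h1, perp_perp hB]
  have hc : IsCompl (D 0) (D 1) := h1 ▸ isCompl_perp hW
  have h0' : D 1 ≠ ⊥ := fun h => h0 (by
    rw [h, finrank_bot] at hd
    exact Submodule.finrank_eq_zero.1 hd)
  have hperp : ∀ x ∈ D 0, ∀ y ∈ D 1, B x y = 0 := fun x hx y hy => (h1 ▸ hy : y ∈ perp P _) x hx
  have hperp' : ∀ x ∈ D 1, ∀ y ∈ D 0, B x y = 0 := fun x hx y hy => (h2 ▸ hy : y ∈ perp P _) x hx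
  have hnot : ∀ x ∈ D 0, ∀ y ∈ D 1, x ≠ 0 → y ≠ 0 → ∀ i, x + y ∉ D i := by
    intro x hx y hy hx0 hy0 i h
    fin_cases i
    · exact hy0 ((Submodule.disjoint_def.1 hc.disjoint) y (((D 0).add_mem_iff_right hx).1 h) hy)
    · exact hx0 ((Submodule.disjoint_def.1 hc.disjoint) x hx (((D 1).add_mem_iff_left hy).1 h))
  have htr : ∀ x ∈ D 0, ∀ y ∈ D 1, ∀ x' ∈ D 0, ∀ y' ∈ D 1, x ≠ 0 → y ≠ 0 → x' ≠ 0 → y' ≠ 0 →
      ∃ g ∈ dstab D ⊓ P.Isom, g (x + y) = x' + y' := by
    intro x hx y hy x' hx' y' hy' a1 a2 a3 a4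
    obtain ⟨g, hg, hg1, e, f⟩ := exists_isom_stab_apply_eq (P := P) hB hW hx hx' a1 a3 trivial
    obtain ⟨g', hg', hg1', e', f'⟩ := exists_isom_stab_apply_eq (P := P) hB hW' hy hy' a2 a4 trivial
    refine ⟨g * g', ⟨mem_dstab_two.2 (Or.inl ⟨(stab _).mul_mem hg1 ?_, (stab _).mul_mem ?_ hg1'⟩),
      P.Isom.mul_mem hg hg'⟩, ?_⟩
    · exact mem_stab_of_fix fun w hw => f' w (h2 ▸ hw)
    · exact mem_stab_of_fix fun w hw => f w (h1 ▸ hw)
    · rw [le_mul_apply, map_add, e', f' x (h2 ▸ hx), map_add, e, f y' (h1 ▸ hy')]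
  refine isMaximalIn_of inf_le_right (fun hle => ?_) fun M hH hM ⟨g, hg, hg'⟩ => ?_
  · obtain ⟨x, hx, hx0⟩ := Submodule.exists_mem_ne_zero_of_ne_bot h0
    obtain ⟨y, hy, hy0⟩ := Submodule.exists_mem_ne_zero_of_ne_bot h0'
    obtain ⟨z, hz, -, hzx⟩ := exists_partner_in (P := P) hB hW hx hx0 trivial
    obtain ⟨s, hs, es⟩ := has_transv_isom (hA := hA) hB 1 (z + y)
    obtain ⟨π, hπ⟩ := mem_dstab.1 (hle hs).1
    have h3 : s x ∈ D (π 0) := hπ 0 ▸ mem_map_le.2 hx
    have hzx' : B z x = 1 := hzx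
    rw [es, map_add, LinearMap.add_apply, hzx', hperp' y hy x hx] at h3
    refine hnot (x + z) ((D 0).add_mem hx hz) y hy (fun h => ?_) hy0 (π 0) (by
      simpa [add_assoc] using h3)
    have := congrArg (B z) h
    simp [hzx', hA] at this
  have hin : ∀ i, ∀ w ∈ D i, ∀ c : F, HasT M w (c • B w) := fun i w hw c => by
    obtain ⟨s, hs, es⟩ := has_transv_isom (hA := hA) hB c w
    refine ⟨s, hH ⟨mem_dstab_of_stab fun j => mem_stab_of_maps fun v hv => ?_, hs⟩, es⟩
    rw [es]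
    refine (D j).add_mem hv ?_
    by_cases hij : i = j
    · exact (D j).smul_mem _ (hij ▸ hw)
    · have : B w v = 0 := by
        fin_cases i <;> fin_cases j
        · exact absurd rfl hij
        · exact hperp w hw v hv
        · exact hperp' w hw v hv
        · exact absurd rfl hij
      simp [this]
  have hconj : ∀ k ∈ M, ∀ w, (∀ c : F, HasT M w (c • B w)) → ∀ c : F, HasT M (k w) (c • B (k w)) :=
    fun k hk w h c => (h c).conj' hk fun x => by
      simp [PQ.mem_isom_ofAlt.1 (hM hk)]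
  obtain ⟨i, w, hw, hw0, hw1⟩ : ∃ i, ∃ w ∈ D i, g w ∉ D 0 ∧ g w ∉ D 1 := by
    by_contra hcon
    push Not at hcon
    refine hg' ⟨mem_dstab_of_maps (fun i j hij => ?_) (fun i j => ?_) fun i => ?_, hM hg⟩
    · by_contra hne
      have : D 0 = D 1 := by
        fin_cases i <;> fin_cases j
        · exact absurd rfl hne
        · exact hij
        · exact hij.symm
        · exact absurd rfl hne
      exact h0 (by simpa [← this] using hc.disjoint)
    · fin_cases i <;> fin_cases j <;> simp [hd]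
    · by_contra hc'
      push Not at hc'
      obtain ⟨x, hx, hx0, hx1⟩ := exists_notMem_two (W := D i)
        (Y := (D 0).comap (g : V →ₗ[F] V)) (Z := (D 1).comap (g : V →ₗ[F] V))
        (fun h => by obtain ⟨x, hx, hx'⟩ := hc' 0; exact hx' (h hx))
        (fun h => by obtain ⟨x, hx, hx'⟩ := hc' 1; exact hx' (h hx))
      exact hx1 (hcon i x hx hx0)
  have hu := hconj g hg w (hin i w hw)
  obtain ⟨x, hx, y, hy, e⟩ := Submodule.mem_sup.1 (hc.sup_eq_top ▸ Submodule.mem_top (x := g w))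
  refine isom_le_of_transv hB fun c d => ?_
  obtain ⟨x', hx', y', hy', rfl⟩ := Submodule.mem_sup.1 (hc.sup_eq_top ▸ Submodule.mem_top (x := d))
  by_cases a3 : x' = 0
  · rw [a3, zero_add]; exact hin 1 y' hy' c
  by_cases a4 : y' = 0
  · rw [a4, add_zero]; exact hin 0 x' hx' c
  obtain ⟨k, hk, ek⟩ := htr x hx y hy x' hx' y' hy'
    (by rintro rfl; exact hw1 (by rw [← e, zero_add]; exact hy))
    (by rintro rfl; exact hw0 (by rw [← e, add_zero]; exact hx)) a3 a4
  rw [← ek, e]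
  exact hconj k (hH hk) _ hu c

open scoped Matrix MatrixGroups in
theorem halves_Sp {F : Type*} [Field F] {m k : ℕ} {D : Fin 2 → Submodule F (Fin m ⊕ Fin m → F)}
    (hD : Geo.IsNondegenerateMDecomposition (sympForm m F) k D) :
    Geo.IsMaximalIn (spGL m F) (Geo.decompositionStabilizer D ⊓ spGL m F) := by
  rw [decompositionStabilizer_eq, spGL_eq', ← pull_inf]
  have hW := nondegOn_sp.1 (hD.nondegenerate 0)
  refine isMaximalIn_pull (isMaximalIn_halves_Sp (spP_nd m) hW ?_ ?_ (ne_bot_of_decomp hD.decomp 0))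
  · exact eq_perp_of_orth hW (fun y hy x hx => hD.orthogonal 0 1 (by decide) x hx y hy)
      (by rw [← iSup_two, hD.decomp.iSup_eq_top])
  · rw [hD.decomp.finrank_eq, hD.decomp.finrank_eq]

end H28.Low
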