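import Mathlib
import Cfsg.Agent.Base
import Cfsg.Agent.Lib.Subfld.Main
import Cfsg.Agent.Lib.ClassMax.C8

/-!
Subfield subgroups of symplectic groups in characteristic two, any dimension at least four.
-/

set_option autoImplicit false
set_option linter.unusedSectionVars false

namespace H28.Low

open Module Cfsg H28 H97 H11.Sub

variable {F V : Type*} [Field F] [AddCommGroup V] [Module F V] {ι : Type*} [Fintype ι]
  [FiniteDimensional F V] [Fintype F]

/-- Symplectic data in characteristic two with a rational structure, and an overgroup `M` of the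
rational group. -/
structure EvS (P : PQ F V (RingHom.id F)) (b : Basis ι F V) (F₀ : Subfield F)
    (M : Subgroup (V ≃ₗ[F] V)) : Prop where
  h : RatPQ P b F₀
  two : (2 : F) = 0
  lam : ∀ l, l ∈ P.Λ
  dim : 3 ≤ Fintype.card ι
  le : ratStab b F₀ ⊓ EG P ≤ M
  isom : M ≤ P.Isom

theorem mem_of_sq_mem (h2 : (2 : F) = 0) {F₀ : Subfield F} {s : F} (hs : s * s ∈ F₀) : s ∈ F₀ := by
  obtain ⟨t, ht⟩ := exists_sq_eq_of_two_eq_zero (F := F₀) (Subtype.ext h2) ⟨s * s, hs⟩
  have h1 : (t : F) ^ 2 = s * s := congrArg Subtype.val ht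
  have h3 : (s - t) ^ 2 = 0 := by linear_combination h1 + (s * s - s * t) * h2
  rw [sub_eq_zero.1 (pow_eq_zero_iff two_ne_zero |>.1 h3)]
  exact t.2

namespace EvS

variable {P : PQ F V (RingHom.id F)} {b : Basis ι F V} {F₀ : Subfield F}
  {M : Subgroup (V ≃ₗ[F] V)} (E : EvS P b F₀ M)
include E

theorem eps : P.ε = 1 := by
  rcases mul_self_eq_one_iff.1 P.εε with h | h
  · exact h
  · rw [h]; linear_combination -E.two

theorem self (x : V) : P.B x x = 0 := P.self_eq_zero (E.lam _)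

theorem comm (x y : V) : P.B x y = P.B y x := by rw [P.symm, E.eps]; simp

theorem app (d w : V) (c : F) (x : V) :
    eu P d w c x = x + (P.B w x + c * P.B d x) • d + P.B d x • w := by
  rw [eu_apply, E.eps]
  linear_combination (norm := skip) (-(c * P.B d x) * E.two) • d - (P.B d x * E.two) • w
  module

theorem rs {d : V} (hd : Rat b F₀ d) (h0 : d ≠ 0) : RS P b F₀ d := ⟨hd, h0, E.lam _⟩

theorem has_rat {d w : V} {c : F} (hd : Rat b F₀ d) (hw : Rat b F₀ w) (hdw : P.B d w = 0)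
    (hc : c ∈ F₀) : Has M (eu P d w c) := by
  by_cases h0 : d = 0
  · exact has_id.congr fun x => by rw [h0, eu_zero_left]
  · exact (E.h.has_eu_rat (E.rs hd h0) hw hdw hc (E.lam _)).mono E.le

theorem tr_rat {d : V} (hd : Rat b F₀ d) {c : F} (hc : c ∈ F₀) : Has M (eu P d 0 c) :=
  E.has_rat hd rat_zero (by simp) hc

theorem conj {d w : V} {c : F} (h : Has M (eu P d w c)) {g : V ≃ₗ[F] V} (hg : g ∈ M) :
    Has M (eu P (g d) (g w) c) := has_eu_conj h hg (E.isom hg)

theorem conj0 {d : V} {c : F} (h : Has M (eu P d 0 c)) {g : V ≃ₗ[F] V} (hg : g ∈ M) :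
    Has M (eu P (g d) 0 c) := by simpa using E.conj h hg

theorem inA {d w : V} {c : F} (hw : P.B d w = 0) (h : Has M (eu P d w c)) : InA P M d w :=
  ⟨hw, c, E.lam _, h⟩

/-- a rational vector perpendicular to `x` with product one against `u` -/
theorem partner {x u : V} (hx : Rat b F₀ x) (hu : Rat b F₀ u) (h : u ∉ F ∙ x) :
    ∃ v, Rat b F₀ v ∧ P.B x v = 0 ∧ P.B u v = 1 := by
  obtain ⟨v, h1, h2, h3⟩ := E.h.exists_rat_B (ratSub_single hx.ratPt) hu h
  exact ⟨v, h1, mem_perp_singleton.1 h2, h3⟩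

theorem notMem_of_B {d x y : V} (h1 : P.B d y = 0) (h2 : P.B x y = 1) : x ∉ F ∙ d := fun h => by
  obtain ⟨a, rfl⟩ := Submodule.mem_span_singleton.1 h
  simp [h1] at h2

theorem exists_perp {d : V} (hd : Rat b F₀ d) : ∃ a, Rat b F₀ a ∧ P.B d a = 0 ∧ a ∉ F ∙ d := by
  have h1 := finrank_le_perp (P := P) (F ∙ d)
  have h2 := finrank_span_singleton_le (F := F) d
  have h3 := finrank_eq_card_basis b
  have h4 := E.dim
  obtain ⟨a, ha, ha1, ha2⟩ := (E.h.ratSub_perp (ratSub_single hd.ratPt)).exists_rat_notMem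
    (U := F ∙ d) fun hle => by have := Submodule.finrank_mono hle; omega
  exact ⟨a, ha1, mem_perp_singleton.1 ha, ha2⟩

theorem trans_indep {x z : V} (hx : Rat b F₀ x) (hz : Rat b F₀ z) (hx0 : x ≠ 0)
    (h : z ∉ F ∙ x) : ∃ g ∈ M, g x = z := by
  obtain ⟨v, hv, h1, h2⟩ := E.partner (hx.sub hz) hx fun hh => by
    obtain ⟨a, ha⟩ := Submodule.mem_span_singleton.1 hh
    have ha0 : a ≠ 0 := by rintro rfl; exact hx0 (by simpa using ha.symm)
    refine h (Submodule.mem_span_singleton.2 ⟨a⁻¹ * (a - 1), ?_⟩)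
    have : a • z = (a - 1) • x := by linear_combination (norm := module) -ha
    rw [mul_smul, ← this, smul_smul, inv_mul_cancel₀ ha0, one_smul]
  have h3 : P.B z v = 1 := by
    rw [map_sub, LinearMap.sub_apply, h2] at h1
    linear_combination -h1
  obtain ⟨g, hg, e⟩ := E.h.exists_map_of_eq (E.rs hv (by rintro rfl; simp at h2)) (E.rs hx hx0)
    (E.rs hz (by rintro rfl; simp at h)) (by rw [E.comm, h2]; exact one_ne_zero)
    (by rw [E.comm, h2, E.comm, h3])
  exact ⟨g, E.le hg, e⟩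

theorem trans {x z : V} (hx : Rat b F₀ x) (hz : Rat b F₀ z) (hx0 : x ≠ 0) (hz0 : z ≠ 0) :
    ∃ g ∈ M, g x = z := by
  by_cases h : z ∈ F ∙ x
  swap
  · exact E.trans_indep hx hz hx0 h
  obtain ⟨y, hy, -, hy'⟩ := E.exists_perp hx
  have hy0 : y ≠ 0 := by rintro rfl; simp at hy'
  obtain ⟨g, hg, e⟩ := E.trans_indep hx hy hx0 hy'
  obtain ⟨g', hg', e'⟩ := E.trans_indep hy hz hy0 fun hh => hy' (by
    have h1 := mem_span_single_symm hh hz0
    exact (Submodule.span_singleton_le_iff_mem _ _).2 h h1)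
  exact ⟨g' * g, M.mul_mem hg' hg, by rw [le_mul_apply, e, e']⟩

theorem K1 {d w a : V} {c l : F} (hw : P.B d w = 0) (ha : P.B d a = 0) (h : Has M (eu P d w c))
    (ht : Has M (eu P a 0 l)) : Has M (eu P d ((l * P.B a w) • a) (l * P.B a w ^ 2)) := by
  obtain ⟨g, hg, e⟩ := ht
  have h1 := E.conj h hg
  have h2 : g d = d := by rw [e, E.app, E.comm a d, ha]; simp
  have h3 : g w = w + (l * P.B a w) • a := by rw [e, E.app]; simp
  rw [h2, h3] at h1
  have h4 := has_eu_add (E.lam _) (by simp [hw, ha]) hw h1 h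
  have h5 : w + (l * P.B a w) • a + w = (l * P.B a w) • a := by
    linear_combination (norm := module) E.two • w
  have h6 : c + c + P.B (w + (l * P.B a w) • a) w = l * P.B a w ^ 2 := by
    simp only [map_add, LinearMap.add_apply, B_smul_left, E.self, RingHom.id_apply]
    linear_combination c * E.two
  rwa [h5, h6] at h4

theorem K1' {d w a : V} {l : F} (ha : P.B d a = 0) (h : InA P M d w)
    (ht : Has M (eu P a 0 l)) : Has M (eu P d ((l * P.B a w) • a) (l * P.B a w ^ 2)) := by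
  obtain ⟨hw, c, -, h⟩ := h
  exact E.K1 hw ha h ht

theorem K2 {d a : V} (hd : Rat b F₀ d) (ha : Rat b F₀ a) (hda : P.B d a = 0) (hda' : d ∉ F ∙ a)
    {s c : F} (h : Has M (eu P d (s • a) c)) : Has M (eu P a (c • d) c) := by
  obtain ⟨e, he, hae, hde⟩ := E.partner ha hd hda'
  obtain ⟨y, hy, ey⟩ := E.has_rat ha he hae F₀.zero_mem
  have had : P.B a d = 0 := by rw [E.comm, hda]
  have h1 := E.conj h hy
  have h2 : y d = d + a := by rw [ey, E.app, E.comm e d, hde, had]; simp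
  have h3 : y a = a := by rw [ey, E.app, E.comm e a, hae, E.self]; simp
  rw [map_smul, h2, h3] at h1
  refine (Has.comp h1 h).congr fun x => ?_
  simp only [E.app, map_add, map_smul, LinearMap.smul_apply, LinearMap.add_apply, E.self, hda, had,
    smul_eq_mul]
  match_scalars
  · ring
  · linear_combination (s * P.B a x + c * P.B d x) * E.two
  · linear_combination (s * P.B d x + s * P.B a x) * E.two

theorem tr_smul {y : V} {a : F} (h : Has M (eu P (a • y) 0 1)) : Has M (eu P y 0 (a * a)) :=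
  h.congr fun x => by rw [eu_smul]; simp

/-- If the short level is everything, `M` is everything. -/
theorem EG_le_of_full {d a : V} (hd : Rat b F₀ d) (ha : Rat b F₀ a) (hda : P.B d a = 0)
    (hda' : a ∉ F ∙ d) (hd0 : d ≠ 0) (h : ∀ s : F, InA P M d (s • a)) : EG P ≤ M := by
  obtain ⟨e, he, hde, hae⟩ := E.partner hd ha hda'
  have hea : P.B e a = 1 := by rw [E.comm, hae]
  have ha0 : a ≠ 0 := by rintro rfl; simp at hda'
  have hd' : d ∉ F ∙ e := fun hh => E.notMem_of_B hda hea (mem_span_single_symm hh hd0)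
  have h1 : ∀ c : F, Has M (eu P (a + c • (e + d)) 0 1) := fun c => by
    obtain ⟨s, rfl⟩ := exists_sq_eq_of_two_eq_zero E.two c
    have h2 := E.K1' hde (h s) (E.tr_rat he F₀.one_mem)
    simp only [map_smul, hea, smul_eq_mul, mul_one, one_mul] at h2
    obtain ⟨g, hg, eg⟩ := E.K2 hd he hde hd' h2
    have h3 := E.conj0 (E.tr_rat ha F₀.one_mem) hg
    have h4 : g a = a + s ^ 2 • (e + d) := by
      rw [eg, E.app, hea, B_smul_left, hda]
      module
    rwa [h4] at h3
  have h2 : ∀ c : F, Has M (eu P a 0 c) := fun c => by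
    obtain ⟨l, rfl⟩ := exists_sq_eq_of_two_eq_zero E.two c
    by_cases hl : l = 0
    · exact has_id.congr fun x => by rw [hl]; simp [eu_zero]
    obtain ⟨g, hg, eg⟩ := h1 (1 + l⁻¹)
    have h3 := E.conj0 (h1 ((1 + l⁻¹) ^ 2 * l)) hg
    rw [sq l]
    apply E.tr_smul
    suffices h4 : g (a + ((1 + l⁻¹) ^ 2 * l) • (e + d)) = l • a by rwa [h4] at h3
    have hed : P.B e d = 0 := by rw [E.comm, hde]
    have had : P.B a d = 0 := by rw [E.comm, hda]
    rw [eg, E.app]
    simp only [map_add, map_smul, LinearMap.smul_apply, LinearMap.add_apply, E.self, hda, had, hea, hae,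
      hde, hed, smul_eq_mul, map_zero, LinearMap.zero_apply]
    match_scalars
    · field_simp
      linear_combination (-(l + 1 + l) + (1 + l * 3 + l ^ 2 * 2)) * E.two
    · field_simp
      linear_combination (-(l + 1) ^ 2 * (l + 1) + (1 + l * 4 + l ^ 2 * 6 + l ^ 3 * 4 + l ^ 4)) * E.two
    · field_simp
      linear_combination (-(l + 1) ^ 2 * (l + 1) + (1 + l * 4 + l ^ 2 * 6 + l ^ 3 * 4 + l ^ 4)) * E.two
  have h3 : ∀ y, Rat b F₀ y → ∀ c : F, Has M (eu P y 0 c) := fun y hy c => by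
    by_cases hy0 : y = 0
    · exact has_id.congr fun x => by rw [hy0, eu_zero_left]
    obtain ⟨g, hg, eg⟩ := E.trans ha hy ha0 hy0
    rw [← eg]; exact E.conj0 (h2 c) hg
  have h4 : ∀ y, Rat b F₀ y → XLe P M y := fun y hy => by
    let U : Submodule F V :=
      { carrier := {w | ∀ s : F, InA P M y (s • w)}
        zero_mem' := fun s => by simpa using inA_zero y
        add_mem' := fun h1 h2 s => by rw [smul_add]; exact (h1 s).add (E.lam _) (h2 s)
        smul_mem' := fun c w h1 s => by rw [smul_smul]; exact h1 _ }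
    have hU : perp P (F ∙ y) ≤ U :=
      (E.h.ratSub_perp (ratSub_single hy.ratPt)).le_of_rat fun v hv hv' s => by
        have hyv := mem_perp_singleton.1 hv
        by_cases hh : v ∈ F ∙ y
        · obtain ⟨t, rfl⟩ := Submodule.mem_span_singleton.1 hh
          rw [smul_smul]; exact inA_self (E.lam _) _
        obtain ⟨w, hw, hyw, hvw⟩ := E.partner hy hv' hh
        have h5 := E.K1 hyw hyv (E.has_rat hy hw hyw F₀.zero_mem) (h3 v hv' s)
        rw [hvw, mul_one] at h5
        exact E.inA (by simp [hyv]) h5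
    intro w c hw _
    obtain ⟨-, c', -, h5⟩ := hU (mem_perp_singleton.2 hw) 1
    rw [one_smul] at h5
    exact has_eu_valid (E.lam _) hw h5 (h3 y hy _)
  exact EG_le_of_xle E.h.nd (E.lam _) (E.lam _) (h4 a ha) (h4 e he) (by rw [hae]; exact one_ne_zero)

theorem EG_le_of_long {r : ℕ} (hr : r.Prime) (hcard : Fintype.card F = Nat.card F₀ ^ r)
    {d : V} (hd : Rat b F₀ d) (hd0 : d ≠ 0) {l : F} (hl : l ∉ F₀) (h : Has M (eu P d 0 l)) :
    EG P ≤ M := by
  obtain ⟨a, ha, hda, hda'⟩ := E.exists_perp hd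
  obtain ⟨e, he, hde, hae⟩ := E.partner hd ha hda'
  have hea : P.B e a = 1 := by rw [E.comm, hae]
  let T : Subring F :=
    { carrier := {t | ∀ s : F, InA P M d (s • a) → InA P M d ((t * s) • a)}
      mul_mem' := fun h1 h2 s hs => by rw [mul_assoc]; exact h1 _ (h2 _ hs)
      one_mem' := fun s hs => by rwa [one_mul]
      add_mem' := fun h1 h2 s hs => by
        rw [add_mul, add_smul]; exact (h1 s hs).add (E.lam _) (h2 s hs)
      zero_mem' := fun s _ => by simpa using inA_zero d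
      neg_mem' := fun h1 s hs => by
        rw [neg_mul, neg_smul]; exact (h1 s hs).neg (E.lam _) }
  have hT : ∀ t, Has M (eu P e 0 t) → t ∈ T := fun t ht s hs => by
    have h1 := E.K1' hde hs ht
    have h2 := E.K1 (by simp [hde]) hda h1 (E.tr_rat ha F₀.one_mem)
    simp only [map_smul, hea, hae, smul_eq_mul, mul_one, one_mul] at h2
    exact E.inA (by simp [hda]) h2
  obtain ⟨g, hg, eg⟩ := E.trans hd he hd0 (by rintro rfl; simp at hae)
  have h1 := subring_eq_top hr hcard T (fun t ht => hT t (E.tr_rat he ht))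
    (hT l (eg ▸ E.conj0 h hg)) hl
  refine E.EG_le_of_full hd ha hda hda' hd0 fun s => ?_
  simpa using h1 s 1 (by simpa using E.inA hda (E.has_rat hd ha hda F₀.zero_mem))

section Long

variable (hL : ∀ d l, Rat b F₀ d → d ≠ 0 → Has M (eu P d 0 l) → l ∈ F₀)
include hL

theorem sq_step {d a : V} (hd : Rat b F₀ d) (ha : Rat b F₀ a) (hda : P.B d a = 0)
    (hda' : a ∉ F ∙ d) (hd0 : d ≠ 0) {s : F} (h : Has M (eu P d (s • a) (s ^ 2))) :
    (s ^ 2) ^ 2 + s ^ 2 ∈ F₀ := by
  have ha0 : a ≠ 0 := by rintro rfl; simp at hda'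
  have hd' : d ∉ F ∙ a := fun hh => hda' (mem_span_single_symm hh hd0)
  have had : P.B a d = 0 := by rw [E.comm, hda]
  have h1 := E.K2 hd ha hda hd' h
  obtain ⟨e, he, hae, hde⟩ := E.partner ha hd hd'
  have hed : P.B e d = 1 := by rw [E.comm, hde]
  have h2 := E.K1 (by simp [had]) hae h1 (E.tr_rat he F₀.one_mem)
  have h3 := E.K1 (by simp [hae]) had h2 (E.tr_rat hd F₀.one_mem)
  simp only [map_smul, hed, hde, smul_eq_mul, mul_one, one_mul] at h3
  have h4 := hL _ _ ha ha0 (has_eu_sub_same (E.lam _) (by simp [had]) h3 h1)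
  convert h4 using 1
  linear_combination s ^ 2 * E.two

theorem B_mem_of_inA {d w a : V} (hd : Rat b F₀ d) (hd0 : d ≠ 0) (hw : InA P M d w)
    (ha : Rat b F₀ a) (hda : P.B d a = 0) : P.B a w ∈ F₀ := by
  by_cases hda' : a ∈ F ∙ d
  · obtain ⟨t, rfl⟩ := Submodule.mem_span_singleton.1 hda'
    simp [hw.1]
  set s := P.B a w with hs
  have h1 : ∀ c ∈ F₀, Has M (eu P d ((c * s) • a) ((c * s) ^ 2)) := fun c hc => by
    obtain ⟨e, he, hde, hae⟩ := E.partner hd ha hda'
    have hea : P.B e a = 1 := by rw [E.comm, hae]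
    have h2 := E.K1' hda hw (E.tr_rat ha hc)
    have h3 := E.K1 (by simp [hda]) hde h2 (E.tr_rat he F₀.one_mem)
    have h4 := E.K1 (by simp [hde]) hda h3 (E.tr_rat ha F₀.one_mem)
    simpa only [map_smul, hea, hae, smul_eq_mul, mul_one, one_mul] using h4
  by_contra hc
  have hσ : s ^ 2 ∉ F₀ := fun h => hc (mem_of_sq_mem E.two (by rwa [← sq]))
  have h2 := E.sq_step hL hd ha hda hda' hd0 (s := s) (by simpa using h1 1 F₀.one_mem)
  have h3 := E.sq_step hL hd ha hda hda' hd0 (h1 _ h2)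
  have h4 := E.K2 hd ha hda (fun hh => hda' (mem_span_single_symm hh hd0))
    (show Has M (eu P d (s • a) (s ^ 2)) by simpa using h1 1 F₀.one_mem)
  rw [mul_pow] at h3
  set σ := s ^ 2
  set κ := σ ^ 2 + σ with hκ
  have hκ0 : κ ≠ 0 := fun h0 => by
    have : σ * (σ + 1) = 0 := by rw [← h0, hκ]; ring
    rcases mul_eq_zero.1 this with h | h
    · exact hσ (h ▸ F₀.zero_mem)
    · exact hσ (by rw [eq_neg_of_add_eq_zero_left h]; exact F₀.neg_mem F₀.one_mem)
  have hκ1 : κ = 1 := by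
    by_contra h0
    have h5 : κ ^ 2 * (κ - 1) ^ 2 ≠ 0 := mul_ne_zero (pow_ne_zero _ hκ0)
      (pow_ne_zero _ (sub_ne_zero.2 h0))
    have h6 : κ ^ 2 * (κ - 1) ^ 2 ∈ F₀ :=
      F₀.mul_mem (F₀.pow_mem h2 _) (F₀.pow_mem (F₀.sub_mem h2 F₀.one_mem) _)
    have h7 := F₀.div_mem (F₀.sub_mem h3 (F₀.pow_mem h2 5)) h6
    refine hσ ?_
    convert h7 using 1
    rw [eq_div_iff h5]
    linear_combination (κ ^ 4 * σ - κ ^ 3 * σ) * E.two + κ ^ 4 * hκ
  obtain ⟨e, he, hde, hae⟩ := E.partner hd ha hda'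
  have hea : P.B e a = 1 := by rw [E.comm, hae]
  have hed : P.B e d = 0 := by rw [E.comm, hde]
  obtain ⟨g, hg, eg⟩ := h4
  obtain ⟨g', hg', eg'⟩ := E.conj0 (E.tr_rat he F₀.one_mem) hg
  have h5 := E.conj0 (E.tr_rat he F₀.one_mem) hg'
  have h6 : g' e = σ ^ 2 • (e + a + d) := by
    rw [eg', eg, E.app]
    simp only [E.app, map_add, map_smul, LinearMap.smul_apply, LinearMap.add_apply, E.self, hde, hae,
      smul_eq_mul, map_zero, LinearMap.zero_apply]
    match_scalars
    · linear_combination hκ - hκ1 + σ * E.two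
    · ring
    · ring
  rw [h6] at h5
  have h7 := hL _ _ ((he.add ha).add hd) (fun h0 => by
    have := congrArg (P.B e) h0
    simp [E.self, hea, hed] at this) (E.tr_smul h5)
  exact hσ (mem_of_sq_mem E.two (by rw [← sq]; exact mem_of_sq_mem E.two h7))

theorem rat_of_tr {x d : V} (hx : Has M (eu P x 0 1)) (hd : Rat b F₀ d) (hd0 : d ≠ 0)
    (hdx : P.B d x = 0) : Rat b F₀ x := by
  have h1 : ∀ w, Rat b F₀ w → P.B d w = 0 → P.B w x ∈ F₀ := fun w hw hdw => by
    have h2 := E.K1 hdw hdx (E.has_rat hd hw hdw F₀.zero_mem) hx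
    have h3 := E.B_mem_of_inA hL hd hd0 (E.inA (by simp [hdx]) h2) hw hdw
    rw [map_smul, E.comm x w, one_mul, smul_eq_mul] at h3
    exact mem_of_sq_mem E.two h3
  obtain ⟨e, he, -, hde⟩ := E.partner rat_zero hd (by simpa using hd0)
  have hed : P.B e d = 1 := by rw [E.comm, hde]
  have hv : Rat b F₀ (x - P.B e x • d) := E.h.rat_of_B fun v hv => by
    have h2 := h1 (v - P.B d v • e) (hv.sub (he.smul (E.h.B_mem _ _ hd hv))) (by simp [hde])
    convert h2 using 1
    simp only [map_sub, map_smul, LinearMap.smul_apply, LinearMap.sub_apply, smul_eq_mul,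
      E.comm v d]
    ring
  generalize P.B e x = t at hv
  obtain ⟨v, hvx⟩ : ∃ v, v = x - t • d := ⟨_, rfl⟩
  rw [← hvx] at hv
  obtain rfl : x = v + t • d := by rw [hvx]; abel
  have hdv : P.B d v = 0 := by simpa [E.self] using hdx
  by_cases hh : v ∈ F ∙ d
  · obtain ⟨s, rfl⟩ := Submodule.mem_span_singleton.1 hh
    rw [← add_smul] at hx ⊢
    exact hd.smul (mem_of_sq_mem E.two (hL _ _ hd hd0 (E.tr_smul hx)))
  obtain ⟨a, ha, hda, hva⟩ := E.partner hd hv hh
  have h2 : Has M (eu P d (t • v) (t * t)) :=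
    (Has.comp hx (E.tr_rat hv F₀.one_mem)).congr fun y => by
      simp only [E.app, map_add, map_smul, LinearMap.smul_apply, LinearMap.add_apply, E.self, hdv,
        smul_eq_mul, map_zero, LinearMap.zero_apply]
      match_scalars
      · ring
      · linear_combination P.B v y * E.two
      · ring
  have h3 := E.B_mem_of_inA hL hd hd0 (E.inA (by simp [hdv]) h2) ha hda
  rw [map_smul, E.comm a v, hva, smul_eq_mul, mul_one] at h3
  exact hv.add (hd.smul h3)

theorem rat_apply {g : V ≃ₗ[F] V} (hg : g ∈ M) {w : V} (hw : Rat b F₀ w) : Rat b F₀ (g w) := by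
  by_cases hw0 : w = 0
  · rw [hw0, map_zero]; exact rat_zero
  refine E.h.rat_of_B fun d hd => ?_
  by_cases hd0 : d = 0
  · simp [hd0]
  obtain ⟨a, ha, hda, hda'⟩ := E.exists_perp hd
  obtain ⟨e, he, hde, hae⟩ := E.partner hd ha hda'
  obtain ⟨z, hz, ez⟩ := E.has_rat hd ha hda F₀.zero_mem
  have h1 : z (g w) = g w + (P.B a (g w) • d + P.B d (g w) • a) := by rw [ez, E.app]; module
  have h2 := E.conj0 (E.conj0 (E.conj0 (E.tr_rat hw F₀.one_mem) hg) hz) (M.inv_mem hg)
  have h3 := E.rat_of_tr hL h2 hw hw0 (by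
    rw [← (E.isom hg).1, le_apply_inv, h1]
    simp only [map_add, map_smul, E.self, smul_eq_mul, E.comm (g w) a, E.comm (g w) d]
    linear_combination P.B a (g w) * P.B d (g w) * E.two)
  have h4 := E.conj0 (E.tr_rat (h3.sub hw) F₀.one_mem) hg
  rw [map_sub, le_apply_inv, h1, add_sub_cancel_left] at h4
  have h5 := E.h.B_mem _ _ he (E.rat_of_tr hL h4 hd hd0 (by simp [E.self, hda]))
  simpa [E.comm e, hde, hae] using h5

end Long

end EvS

theorem isMaximalIn_subfield_even {P : PQ F V (RingHom.id F)} {b : Basis ι F V} {F₀ : Subfield F}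
    (h : RatPQ P b F₀) (h2 : (2 : F) = 0) (hΛ : ∀ l, l ∈ P.Λ) (hn : 3 ≤ Fintype.card ι)
    {r : ℕ} (hr : r.Prime) (hcard : Fintype.card F = Nat.card F₀ ^ r) :
    Geo.IsMaximalIn (EG P) (ratNorm b F₀ ⊓ EG P) := by
  have := finite_of_basis b
  refine isMaximalIn_of inf_le_right (fun hle => ?_) fun M h1 hM ⟨g, hg, hg'⟩ => ?_
  · have E : EvS P b F₀ (EG P) := ⟨h, h2, hΛ, hn, inf_le_right, EG_le_isom⟩
    obtain ⟨s, hs⟩ := exists_notMem_of_card hr hcard
    obtain ⟨d, hd, -, hd0⟩ := E.exists_perp rat_zero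
    replace hd0 : d ≠ 0 := by simpa using hd0
    obtain ⟨e, he, -, hde⟩ := E.partner rat_zero hd (by simpa using hd0)
    obtain ⟨g, hg, eg⟩ := has_eu_EG (P := P) (d := d) (w := 0) (c := s) (hΛ _) (by simp) (hΛ _)
    have := he.ratPt.apply (hle hg).1
    rw [eg, E.app] at this
    exact not_ratPt_add_smul hd he hd0 (E.notMem_of_B (E.self d) (by rw [E.comm, hde])) hs
      (by simpa [hde] using this)
  have E : EvS P b F₀ M :=
    ⟨h, h2, hΛ, hn, (inf_le_inf_right _ ratStab_le_ratNorm).trans h1, hM.trans EG_le_isom⟩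
  by_contra hE
  refine hg' ⟨mem_ratNorm_of_maps one_ne_zero fun x hx => ?_, hM hg⟩
  rw [one_smul]
  refine E.rat_apply (fun d l hd hd0 hl => ?_) hg hx
  by_contra hc
  exact hE (E.EG_le_of_long hr hcard hd hd0 hc hl)

open scoped Matrix MatrixGroups in
theorem subfield_Sp_even {m : ℕ} (hm : 2 ≤ m) (heven : ¬ Odd (Fintype.card F)) (F₀ : Subfield F)
    {r : ℕ} (hr : r.Prime) (hcard : Fintype.card F = Nat.card F₀ ^ r)
    (A : GL (Fin m ⊕ Fin m) F) {ζ : F} (hζ : ζ ≠ 0)
    (hA : Geo.IsFormRationalStructure (sympForm m F) F₀ ζ A) :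
    Geo.IsMaximalIn (spGL m F) (Geo.subfieldSubgroup F₀ A ⊓ spGL m F) := by
  let P := scale (spP m F) ζ 1 hζ (by simp) (by simp) (by simp)
  have hΛ : ∀ l, l ∈ P.Λ := fun _ => trivial
  have h : RatPQ P (colBasis A) F₀ := ⟨scale_nd (spP_nd m), fun a ha => ha,
    fun x y hx hy => formRat hA hx hy, fun x _ => ⟨0, F₀.zero_mem, hΛ _⟩⟩
  rw [subfieldSubgroup_eq, spGL_eq, ← pull_inf, ← scale_EG (ζ := ζ) (δ := 1) (hζ := hζ)
    (hδ := by simp) (hσδ := by simp) (hσζ := by simp)]
  exact isMaximalIn_pull (isMaximalIn_subfield_even h (two_eq_zero_of_not_odd heven) hΛ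
    (by simp; omega) hr hcard)

end H28.Low
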